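import Mathlib
import Cfsg.Prelude.Def_LocalEven
import Cfsg.Agent.Helper10.QStab

/-!
helper23: stabilizers of chief chains.  `stabC Pr` is the subgroup of elements centralizing all
sections `U / V` with `Pr U V`; a `p'`-element stabilizing a chief chain of a normal `p`-subgroup
centralizes it; an element outside `O_p` moves some chief factor of a chain `1 ≤ Z ≤ A`.
-/

set_option autoImplicit false

namespace Cfsg.Agent.Helper23.Kq

open Cfsg
open scoped commutatorElement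

section basic

variable {G : Type*} [Group G]

/-- Elements centralizing every section `U / V` with `Pr U V`. -/
def stabC (Pr : Subgroup G → Subgroup G → Prop) (hPr : ∀ U V, Pr U V → V.Normal) : Subgroup G where
  carrier := {x | ∀ U V, Pr U V → ∀ u ∈ U, ⁅u, x⁆ ∈ V}
  mul_mem' := by
    intro x y hx hy U V h u hu
    have hVn := hPr U V h
    have e : ⁅u, x * y⁆ = ⁅u, x⁆ * (x * ⁅u, y⁆ * x⁻¹) := by
      simp only [commutatorElement_def]; group
    rw [e]
    exact V.mul_mem (hx U V h u hu) (hVn.conj_mem _ (hy U V h u hu) x)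
  one_mem' := by
    intro U V h u hu
    rw [commutatorElement_one_right]; exact V.one_mem
  inv_mem' := by
    intro x hx U V h u hu
    have hVn := hPr U V h
    have e : ⁅u, x⁻¹⁆ = x⁻¹ * (⁅u, x⁆)⁻¹ * x⁻¹⁻¹ := by
      simp only [commutatorElement_def]; group
    rw [e]
    exact hVn.conj_mem _ (V.inv_mem (hx U V h u hu)) x⁻¹

theorem mem_stabC (Pr : Subgroup G → Subgroup G → Prop) (hPr : ∀ U V, Pr U V → V.Normal) (x : G) :
    x ∈ stabC Pr hPr ↔ ∀ U V, Pr U V → ∀ u ∈ U, ⁅u, x⁆ ∈ V := Iff.rfl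

theorem stabC_normal (Pr : Subgroup G → Subgroup G → Prop) (hPr : ∀ U V, Pr U V → V.Normal)
    (hU : ∀ U V, Pr U V → U.Normal) : (stabC Pr hPr).Normal := by
  constructor
  intro x hx t U V h u hu
  have hVn := hPr U V h
  have hUn := hU U V h
  have e : ⁅u, t * x * t⁻¹⁆ = t * ⁅t⁻¹ * u * t⁻¹⁻¹, x⁆ * t⁻¹ := by
    simp only [commutatorElement_def]; group
  rw [e]
  exact hVn.conj_mem _ (hx U V h _ (hUn.conj_mem u hu t⁻¹)) t

/-- Elementwise commutation into a normal subgroup gives the subgroup commutator bound. -/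
theorem comm_zpowers_le {U V : Subgroup G} (hV : V.Normal) {x : G} (h : ∀ u ∈ U, ⁅u, x⁆ ∈ V) :
    ⁅U, Subgroup.zpowers x⁆ ≤ V := by
  have hPr : ∀ U' V' : Subgroup G, (U' = U ∧ V' = V) → V'.Normal := by
    rintro U' V' ⟨-, rfl⟩; exact hV
  have hx : x ∈ stabC (fun U' V' => U' = U ∧ V' = V) hPr := by
    rintro U' V' ⟨rfl, rfl⟩ u hu; exact h u hu
  have hz : Subgroup.zpowers x ≤ stabC (fun U' V' => U' = U ∧ V' = V) hPr :=
    (Subgroup.zpowers_le).2 hx
  rw [Subgroup.commutator_le]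
  intro u hu y hy
  exact hz hy U V ⟨rfl, rfl⟩ u hu

theorem exists_pow_coprime [Finite G] (p : ℕ) [Fact p.Prime] (x : G) :
    ∃ a m : ℕ, m.Coprime p ∧ (x ^ (p ^ a)) ^ m = 1 := by
  have hp : p.Prime := Fact.out
  obtain ⟨a, m, hm, hcard⟩ :=
    Nat.exists_eq_pow_mul_and_not_dvd (Nat.card_pos (α := G)).ne' p hp.ne_one
  refine ⟨a, m, ((Nat.Prime.coprime_iff_not_dvd hp).2 hm).symm, ?_⟩
  rw [← pow_mul, ← hcard, pow_card_eq_one']

end basic

section chain

variable {G : Type*} [Group G] [Finite G] {p : ℕ} [Fact p.Prime]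

/-- A `p'`-element centralizing `Z₀` and all chief factors between `Z₀` and `Atop` centralizes
every normal `p`-subgroup between them. -/
theorem cent_of_stab_chain (Z₀ Atop : Subgroup G) (hZ₀n : Z₀.Normal) (x : G) {m : ℕ}
    (hm : m.Coprime p) (hxm : x ^ m = 1)
    (hZ₀ : ∀ z ∈ Z₀, x * z = z * x)
    (hch : ∀ U V, IsChiefFactor U V → Z₀ ≤ V → U ≤ Atop → ∀ u ∈ U, ⁅u, x⁆ ∈ V) :
    ∀ (c : ℕ) (N : Subgroup G), N.Normal → IsPGroup p N → Z₀ ≤ N → N ≤ Atop → Nat.card N ≤ c →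
      ∀ y ∈ N, x * y = y * x := by
  intro c
  induction c with
  | zero =>
    intro N _ _ _ _ hc
    have := Nat.card_pos (α := ↥N)
    omega
  | succ c ih =>
    intro N hNn hNp hZN hNA hc y hy
    by_cases hNZ : N = Z₀
    · rw [hNZ] at hy; exact hZ₀ y hy
    · haveI : Nonempty {N' : Subgroup G // N'.Normal ∧ Z₀ ≤ N' ∧ N' ≤ N ∧ N' ≠ N} :=
        ⟨⟨Z₀, hZ₀n, le_rfl, hZN, fun h => hNZ h.symm⟩⟩
      obtain ⟨⟨N', hN'n, hZN', hN'N, hN'ne⟩, hmax⟩ := Finite.exists_max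
        (fun E : {N' : Subgroup G // N'.Normal ∧ Z₀ ≤ N' ∧ N' ≤ N ∧ N' ≠ N} => Nat.card E.1)
      have hlt : Nat.card N' < Nat.card N := by
        by_contra h
        exact hN'ne (Subgroup.eq_of_le_of_card_ge hN'N (not_lt.1 h))
      have hchief : IsChiefFactor N N' := by
        refine ⟨lt_of_le_of_ne hN'N hN'ne, hNn, hN'n, fun M hMn hN'M hMN => ?_⟩
        by_cases hMN' : M = N
        · exact Or.inr hMN'
        · left
          have := hmax ⟨M, hMn, hZN'.trans hN'M, hMN, hMN'⟩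
          exact (Subgroup.eq_of_le_of_card_ge hN'M this).symm
      have hN'p : IsPGroup p N' := hNp.to_le hN'N
      have hcent' := ih N' hN'n hN'p hZN' (hN'N.trans hNA) (by omega)
      have hw : ⁅y, x⁆ ∈ N' := hch N N' hchief hZN' hNA y hy
      have hw' : x * y * x⁻¹ * y⁻¹ ∈ N' := by
        have : x * y * x⁻¹ * y⁻¹ = (⁅y, x⁆)⁻¹ := by rw [commutatorElement_def]; group
        rw [this]; exact N'.inv_mem hw
      exact Cfsg.Agent.Helper23.commute_of_stab hN'p hw' (hcent' _ hw') hm hxm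

/-- The chief-factor centralizer of a normal subgroup `Z`. -/
def chiefC (Z : Subgroup G) : Subgroup G :=
  stabC (fun U V => IsChiefFactor U V ∧ U ≤ Z) (fun _ _ h => h.1.2.2.1)

omit [Finite G] [Fact p.Prime] in
theorem chiefC_normal (Z : Subgroup G) : (chiefC Z).Normal :=
  stabC_normal _ _ (fun _ _ h => h.1.2.1)

omit [Finite G] [Fact p.Prime] in
theorem comm_le_of_mem_chiefC {Z : Subgroup G} {g : G} (hg : g ∈ chiefC Z) {U V : Subgroup G}
    (h : IsChiefFactor U V) (hUZ : U ≤ Z) : ⁅U, Subgroup.zpowers g⁆ ≤ V :=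
  comm_zpowers_le h.2.2.1 (fun u hu => hg U V ⟨h, hUZ⟩ u hu)

omit [Finite G] [Fact p.Prime] in
theorem exists_chief_of_not_mem_chiefC {Z : Subgroup G} {g : G} (hg : g ∉ chiefC Z) :
    ∃ U V : Subgroup G, IsChiefFactor U V ∧ U ≤ Z ∧ ¬ ⁅U, Subgroup.zpowers g⁆ ≤ V := by
  by_contra hcon
  apply hg
  rintro U V ⟨h, hUZ⟩ u hu
  by_contra hu'
  exact hcon ⟨U, V, h, hUZ, fun hle =>
    hu' (hle (Subgroup.commutator_mem_commutator hu (Subgroup.mem_zpowers g)))⟩

/-- `chiefC Z` is a `p`-group modulo `C(Z)` when `Z` is a normal `p`-subgroup. -/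
theorem chiefC_pow_mem (Z : Subgroup G) (hZn : Z.Normal) (hZp : IsPGroup p Z) (x : G)
    (hx : x ∈ chiefC Z) : ∃ k : ℕ, x ^ (p ^ k) ∈ Subgroup.centralizer (Z : Set G) := by
  obtain ⟨a, m, hm, hxm⟩ := exists_pow_coprime p x
  refine ⟨a, ?_⟩
  have hy : x ^ (p ^ a) ∈ chiefC Z := Subgroup.pow_mem _ hx _
  have key := cent_of_stab_chain (p := p) ⊥ Z Subgroup.normal_bot (x ^ (p ^ a)) hm hxm
    (fun z hz => by rw [Subgroup.mem_bot.1 hz]; simp)
    (fun U V h _ hUZ u hu => hy U V ⟨h, hUZ⟩ u hu) (Nat.card Z) Z hZn hZp bot_le le_rfl le_rfl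
  rw [Subgroup.mem_centralizer_iff]
  intro z hz
  exact (key z hz).symm

/-- An element outside `O_p` moves some chief factor of the chain `1 ≤ Z ≤ A`, when `C(A)` has no
nontrivial `p'`-elements. -/
theorem exists_chief_not_cent (Z A : Subgroup G) (hZn : Z.Normal) (hAn : A.Normal) (hZA : Z ≤ A)
    (hAp : IsPGroup p A)
    (hcent : ∀ x ∈ Subgroup.centralizer (A : Set G), ∀ m : ℕ, m.Coprime p → x ^ m = 1 → x = 1)
    (g : G) (hg : g ∉ pCore p G) :
    ∃ U V : Subgroup G, IsChiefFactor U V ∧ (U ≤ Z ∨ (Z ≤ V ∧ U ≤ A)) ∧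
      ¬ ⁅U, Subgroup.zpowers g⁆ ≤ V := by
  by_contra hcon
  apply hg
  obtain ⟨D, hD⟩ : ∃ D : Subgroup G, D = stabC
      (fun U V => IsChiefFactor U V ∧ (U ≤ Z ∨ (Z ≤ V ∧ U ≤ A))) (fun _ _ h => h.1.2.2.1) :=
    ⟨_, rfl⟩
  have hDn : D.Normal := by rw [hD]; exact stabC_normal _ _ (fun _ _ h => h.1.2.1)
  have hgD : g ∈ D := by
    rw [hD]
    rintro U V ⟨h, hty⟩ u hu
    by_contra hu'
    exact hcon ⟨U, V, h, hty, fun hle =>
      hu' (hle (Subgroup.commutator_mem_commutator hu (Subgroup.mem_zpowers g)))⟩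
  have hDp : IsPGroup p D := by
    rintro ⟨x, hx⟩
    obtain ⟨a, m, hm, hxm⟩ := exists_pow_coprime p x
    refine ⟨a, Subtype.ext ?_⟩
    show x ^ (p ^ a) = 1
    have hy : x ^ (p ^ a) ∈ D := Subgroup.pow_mem _ hx _
    rw [hD] at hy
    have key1 := cent_of_stab_chain (p := p) ⊥ Z Subgroup.normal_bot (x ^ (p ^ a)) hm hxm
      (fun z hz => by rw [Subgroup.mem_bot.1 hz]; simp)
      (fun U V h _ hUZ u hu => hy U V ⟨h, Or.inl hUZ⟩ u hu) (Nat.card Z) Z hZn (hAp.to_le hZA)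
      bot_le le_rfl le_rfl
    have key2 := cent_of_stab_chain (p := p) Z A hZn (x ^ (p ^ a)) hm hxm key1
      (fun U V h hZV hUA u hu => hy U V ⟨h, Or.inr ⟨hZV, hUA⟩⟩ u hu) (Nat.card A) A hAn hAp
      hZA le_rfl le_rfl
    apply hcent _ ?_ m hm hxm
    rw [Subgroup.mem_centralizer_iff]
    intro z hz
    exact (key2 z hz).symm
  exact Cfsg.Agent.Helper23.le_pCore hDn hDp hgD

end chain

end Cfsg.Agent.Helper23.Kq
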