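import Mathlib
import Cfsg.Prelude.Def_LocalEven
import Cfsg.Agent.Helper16.Basic
import Cfsg.Agent.Helper14.Comm
import Cfsg.Agent.Helper10.KMax
import Cfsg.Agent.Helper10.KInf2

/-!
helper23: a Clifford-type theorem in subgroup language.  For an abelian section `U / V` of `G`
(both normal) and `K ≤ G`, `SS K U V` says that the lattice of `K`-invariant subgroups between `V`
and `U` is complemented.  It passes from `K` to normal subgroups of `K`, hence from `G` (for a chief
factor) to subnormal subgroups.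
-/

set_option autoImplicit false

namespace Cfsg.Agent.Helper23.Kq

open Cfsg
open scoped commutatorElement

section lattice

variable {G : Type*} [Group G]

theorem le_normalizer_inf {K X Y : Subgroup G} (hX : K ≤ Subgroup.normalizer (X : Set G))
    (hY : K ≤ Subgroup.normalizer (Y : Set G)) :
    K ≤ Subgroup.normalizer ((X ⊓ Y : Subgroup G) : Set G) := by
  apply Helper16.le_normalizer_of_conj_mem
  rintro k hk x ⟨hx, hy⟩
  exact ⟨(Subgroup.mem_normalizer_iff.1 (hX hk) x).1 hx,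
    (Subgroup.mem_normalizer_iff.1 (hY hk) x).1 hy⟩

theorem le_normalizer_sup {K X Y : Subgroup G} (hX : K ≤ Subgroup.normalizer (X : Set G))
    (hY : K ≤ Subgroup.normalizer (Y : Set G)) :
    K ≤ Subgroup.normalizer ((X ⊔ Y : Subgroup G) : Set G) := by
  apply Helper16.le_normalizer_of_conj_mem
  intro k hk x hx
  have h1 : X ⊔ Y ≤ (X ⊔ Y).comap (MulAut.conj k).toMonoidHom := by
    refine sup_le (fun a ha => ?_) (fun a ha => ?_)
    · rw [Subgroup.mem_comap]
      exact Subgroup.mem_sup_left ((Subgroup.mem_normalizer_iff.1 (hX hk) a).1 ha)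
    · rw [Subgroup.mem_comap]
      exact Subgroup.mem_sup_right ((Subgroup.mem_normalizer_iff.1 (hY hk) a).1 ha)
  exact h1 hx

theorem map_conj_conj_inv (k : G) (E : Subgroup G) :
    (E.map (MulAut.conj k⁻¹).toMonoidHom).map (MulAut.conj k).toMonoidHom = E := by
  rw [Subgroup.map_map]
  have : (MulAut.conj k).toMonoidHom.comp (MulAut.conj k⁻¹).toMonoidHom = MonoidHom.id G := by
    ext x
    simp only [MonoidHom.coe_comp, MulEquiv.coe_toMonoidHom, Function.comp_apply,
      MulAut.conj_apply, MonoidHom.id_apply]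
    group
  rw [this, Subgroup.map_id]

theorem map_conj_inv_conj (k : G) (E : Subgroup G) :
    (E.map (MulAut.conj k).toMonoidHom).map (MulAut.conj k⁻¹).toMonoidHom = E := by
  have := map_conj_conj_inv k⁻¹ E
  rwa [inv_inv] at this

/-- `W` is a `K`-invariant subgroup between `V` and `U`. -/
def Inv (K U V W : Subgroup G) : Prop :=
  V ≤ W ∧ W ≤ U ∧ K ≤ Subgroup.normalizer (W : Set G)

/-- The lattice of `K`-invariant subgroups between `V` and `U` is complemented. -/
def SS (K U V : Subgroup G) : Prop :=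
  ∀ W, Inv K U V W → ∃ W', Inv K U V W' ∧ W ⊓ W' ≤ V ∧ U ≤ W ⊔ W'

theorem ss_top {U V : Subgroup G} (h : IsChiefFactor U V) : SS ⊤ U V := by
  obtain ⟨hlt, hUn, hVn, hch⟩ := h
  rintro W ⟨hW1, hW2, hW3⟩
  have hWn : W.Normal := Subgroup.normalizer_eq_top_iff.1 (top_le_iff.1 hW3)
  rcases hch W hWn hW1 hW2 with h | h
  · exact ⟨U, ⟨hlt.le, le_rfl, by rw [Subgroup.normalizer_eq_top_iff.2 hUn]⟩,
      by rw [h]; exact inf_le_left, le_sup_right⟩
  · exact ⟨V, ⟨le_rfl, hlt.le, by rw [Subgroup.normalizer_eq_top_iff.2 hVn]⟩, inf_le_right,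
      by rw [h]; exact le_sup_left⟩

/-- Subgroups between `V` and `U` are normalized by `U` when `U / V` is abelian. -/
theorem le_normalizer_of_between {U V T : Subgroup G} (hab : ⁅U, U⁆ ≤ V) (hVT : V ≤ T)
    (hTU : T ≤ U) : U ≤ Subgroup.normalizer (T : Set G) := by
  apply Helper16.le_normalizer_of_conj_mem
  intro u hu t ht
  have h1 : ⁅u, t⁆ ∈ T := hVT (hab (Subgroup.commutator_mem_commutator hu (hTU ht)))
  have e : u * t * u⁻¹ = ⁅u, t⁆ * t := by rw [commutatorElement_def]; group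
  rw [e]; exact T.mul_mem h1 ht

end lattice

section clifford

variable {G : Type*} [Group G] [Finite G]

/-- **Clifford step**: complementedness passes to normal subgroups. -/
theorem clifford_step (U V : Subgroup G) (hUn : U.Normal) (hVn : V.Normal) (hVU : V ≤ U)
    (hab : ⁅U, U⁆ ≤ V) (K N : Subgroup G) (hNK : N ≤ K)
    (hKN : K ≤ Subgroup.normalizer (N : Set G)) (hK : SS K U V) : SS N U V := by
  classical
  obtain ⟨At, hAt⟩ : ∃ At : Subgroup G → Prop, At = fun D =>
      Inv N U V D ∧ D ≠ V ∧ ∀ E, Inv N U V E → E ≤ D → E = V ∨ E = D := ⟨_, rfl⟩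
  have hVk : ∀ k : G, V.map (MulAut.conj k).toMonoidHom = V := fun k =>
    Helper16.map_conj_eq_of_mem_normalizer (by
      rw [Subgroup.normalizer_eq_top_iff.mpr hVn]; exact Subgroup.mem_top k)
  have hUk : ∀ k : G, U.map (MulAut.conj k).toMonoidHom = U := fun k =>
    Helper16.map_conj_eq_of_mem_normalizer (by
      rw [Subgroup.normalizer_eq_top_iff.mpr hUn]; exact Subgroup.mem_top k)
  -- every nontrivial invariant subgroup contains an atom
  have hatom : ∀ Y, Inv N U V Y → Y ≠ V → ∃ D, At D ∧ D ≤ Y := by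
    intro Y hY hYV
    haveI : Nonempty {E : Subgroup G // Inv N U V E ∧ E ≠ V ∧ E ≤ Y} :=
      ⟨⟨Y, hY, hYV, le_rfl⟩⟩
    obtain ⟨⟨D, hD1, hD2, hD3⟩, hmin⟩ := Finite.exists_min
      (fun E : {E : Subgroup G // Inv N U V E ∧ E ≠ V ∧ E ≤ Y} => Nat.card E.1)
    refine ⟨D, ?_, hD3⟩
    rw [hAt]
    refine ⟨hD1, hD2, fun E hE hED => ?_⟩
    by_cases hEV : E = V
    · exact Or.inl hEV
    · right
      have := hmin ⟨E, hE, hEV, hED.trans hD3⟩
      exact Subgroup.eq_of_le_of_card_ge hED this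
  -- conjugation by `K` preserves invariance and atoms
  have hconjInv : ∀ k ∈ K, ∀ E, Inv N U V E → Inv N U V (E.map (MulAut.conj k).toMonoidHom) := by
    rintro k hk E ⟨hE1, hE2, hE3⟩
    refine ⟨(hVk k).symm.le.trans (Subgroup.map_mono hE1),
      (Subgroup.map_mono hE2).trans (hUk k).le, ?_⟩
    apply Helper16.le_normalizer_of_conj_mem
    rintro n hn _ ⟨e, he, rfl⟩
    have hn' : k⁻¹ * n * k ∈ N := by
      have := (Subgroup.mem_normalizer_iff.1 (Subgroup.inv_mem _ (hKN hk)) n).1 hn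
      simpa using this
    have he' : (k⁻¹ * n * k) * e * (k⁻¹ * n * k)⁻¹ ∈ E :=
      (Subgroup.mem_normalizer_iff.1 (hE3 hn') e).1 he
    refine ⟨_, he', ?_⟩
    simp only [MulEquiv.coe_toMonoidHom, MulAut.conj_apply]; group
  have hconjAt : ∀ k ∈ K, ∀ D, At D → At (D.map (MulAut.conj k).toMonoidHom) := by
    intro k hk D hD
    rw [hAt] at hD ⊢
    obtain ⟨hD1, hD2, hD3⟩ := hD
    refine ⟨hconjInv k hk D hD1, ?_, ?_⟩
    · intro h
      apply hD2
      have := congrArg (Subgroup.map (MulAut.conj k⁻¹).toMonoidHom) h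
      rwa [map_conj_inv_conj, hVk] at this
    · intro E hE hED
      have hE' := hconjInv k⁻¹ (K.inv_mem hk) E hE
      have hle : E.map (MulAut.conj k⁻¹).toMonoidHom ≤ D := by
        have := Subgroup.map_mono (f := (MulAut.conj k⁻¹).toMonoidHom) hED
        rwa [map_conj_inv_conj] at this
      rcases hD3 _ hE' hle with h | h
      · left
        have := congrArg (Subgroup.map (MulAut.conj k).toMonoidHom) h
        rwa [map_conj_conj_inv, hVk] at this
      · right
        have := congrArg (Subgroup.map (MulAut.conj k).toMonoidHom) h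
        rwa [map_conj_conj_inv] at this
  -- the socle
  obtain ⟨Soc, hSoc⟩ : ∃ Soc : Subgroup G, Soc = (⨆ D ∈ {D | At D}, D) ⊔ V := ⟨_, rfl⟩
  have hVSoc : V ≤ Soc := by rw [hSoc]; exact le_sup_right
  have hAtle : ∀ D, At D → D ≤ Soc := by
    intro D hD
    rw [hSoc]
    exact le_sup_of_le_left (le_iSup₂ (f := fun (D : Subgroup G) (_ : D ∈ {D | At D}) => D) D hD)
  have hSocle : ∀ R : Subgroup G, V ≤ R → (∀ D, At D → D ≤ R) → Soc ≤ R := by
    intro R hVR h
    rw [hSoc]
    exact sup_le (iSup₂_le fun D hD => h D hD) hVR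
  have hSocInv : Inv K U V Soc := by
    refine ⟨hVSoc, hSocle U hVU (fun D hD => ?_), ?_⟩
    · rw [hAt] at hD; exact hD.1.2.1
    · apply Helper16.le_normalizer_of_conj_mem
      intro k hk x hx
      have h1 : Soc ≤ Soc.comap (MulAut.conj k).toMonoidHom := by
        apply hSocle
        · rw [← Subgroup.map_le_iff_le_comap, hVk]; exact hVSoc
        · intro D hD
          rw [← Subgroup.map_le_iff_le_comap]
          exact hAtle _ (hconjAt k hk D hD)
      exact h1 hx
  have hSocU : U ≤ Soc := by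
    obtain ⟨Y, hY, hSY, hUSY⟩ := hK Soc hSocInv
    have hYV : Y = V := by
      by_contra hne
      have hYN : Inv N U V Y := ⟨hY.1, hY.2.1, hNK.trans hY.2.2⟩
      obtain ⟨D, hD, hDY⟩ := hatom Y hYN hne
      have hDV : D ≤ V := (le_inf (hAtle D hD) hDY).trans hSY
      rw [hAt] at hD
      exact hD.2.1 (le_antisymm hDV hD.1.1)
    rw [hYV] at hUSY
    exact hUSY.trans (sup_le le_rfl hVSoc)
  -- complements
  intro W hW
  haveI : Nonempty {W' : Subgroup G // Inv N U V W' ∧ W ⊓ W' ≤ V} :=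
    ⟨⟨V, ⟨le_rfl, hVU, by rw [Subgroup.normalizer_eq_top_iff.2 hVn]; exact le_top⟩,
      inf_le_right⟩⟩
  obtain ⟨⟨W', hW'1, hW'2⟩, hmax⟩ := Finite.exists_max
    (fun E : {W' : Subgroup G // Inv N U V W' ∧ W ⊓ W' ≤ V} => Nat.card E.1)
  refine ⟨W', hW'1, hW'2, ?_⟩
  by_contra hnot
  have hRinv : Inv N U V (W ⊔ W') :=
    ⟨hW.1.trans le_sup_left, sup_le hW.2.1 hW'1.2.1, le_normalizer_sup hW.2.2 hW'1.2.2⟩
  obtain ⟨D, hD, hDR⟩ : ∃ D, At D ∧ ¬ D ≤ W ⊔ W' := by
    by_contra h
    push Not at h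
    exact hnot (hSocU.trans (hSocle _ hRinv.1 h))
  have hD' := hD
  rw [hAt] at hD'
  obtain ⟨hD1, hD2, hD3⟩ := hD'
  have hDRV : D ⊓ (W ⊔ W') = V := by
    rcases hD3 (D ⊓ (W ⊔ W')) ⟨le_inf hD1.1 hRinv.1, inf_le_left.trans hD1.2.1,
      le_normalizer_inf hD1.2.2 hRinv.2.2⟩ inf_le_left with h | h
    · exact h
    · exfalso
      apply hDR
      rw [← h]; exact inf_le_right
  have hW'D : W' ≤ Subgroup.normalizer (D : Set G) :=
    hW'1.2.1.trans (le_normalizer_of_between hab hD1.1 hD1.2.1)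
  have hnew : Inv N U V (W' ⊔ D) ∧ W ⊓ (W' ⊔ D) ≤ V := by
    refine ⟨⟨hW'1.1.trans le_sup_left, sup_le hW'1.2.1 hD1.2.1,
      le_normalizer_sup hW'1.2.2 hD1.2.2⟩, ?_⟩
    rintro x ⟨hxW, hxS⟩
    have hxS' : x ∈ D ⊔ W' := by rw [sup_comm]; exact hxS
    obtain ⟨d, hd, w, hw, rfl⟩ := Helper14.exists_mul_of_mem_sup_normalizer D W' hW'D hxS'
    have hdR : d ∈ W ⊔ W' := by
      have : d = (d * w) * w⁻¹ := by group
      rw [this]
      exact Subgroup.mul_mem _ (Subgroup.mem_sup_left hxW)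
        (Subgroup.mem_sup_right (W'.inv_mem hw))
    have hdV : d ∈ V := by rw [← hDRV]; exact ⟨hd, hdR⟩
    have : d * w ∈ W' := W'.mul_mem (hW'1.1 hdV) hw
    exact hW'2 ⟨hxW, this⟩
  have hcard := hmax ⟨W' ⊔ D, hnew.1, hnew.2⟩
  have heq : W' = W' ⊔ D := Subgroup.eq_of_le_of_card_ge le_sup_left hcard
  apply hDR
  have : D ≤ W' := by rw [heq]; exact le_sup_right
  exact this.trans le_sup_right

end clifford

end Cfsg.Agent.Helper23.Kq
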