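import Mathlib
import Cfsg.Prelude.Def_LocalEven
import Cfsg.Agent.Helper23.Kq2

/-!
helper23: complementedness for subgroups `C ≤ H ≤ C₁` with `C₁ / C` a `p`-group (they are
subnormal), and the resulting quadratic action on a chief factor.
-/

set_option autoImplicit false

namespace Cfsg.Agent.Helper23.Kq

open Cfsg
open scoped commutatorElement

section grow

variable {G : Type*} [Group G] [Finite G] {p : ℕ} [Fact p.Prime]

/-- Normalizers grow between `C` and `C₁` when `C₁ / C` is a `p`-group. -/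
theorem normalizer_grow (C C₁ H : Subgroup G) [hCn : C.Normal] (hCH : C ≤ H) (hHC₁ : H ≤ C₁)
    (hne : H ≠ C₁) (hp : ∀ x ∈ C₁, ∃ k : ℕ, x ^ (p ^ k) ∈ C) :
    ∃ x ∈ C₁, x ∉ H ∧ x ∈ Subgroup.normalizer (H : Set G) := by
  obtain ⟨π, hπ⟩ : ∃ π : G →* G ⧸ C, π = QuotientGroup.mk' C := ⟨_, rfl⟩
  have hπ1 : ∀ x : G, π x = 1 ↔ x ∈ C := by
    intro x; rw [hπ, QuotientGroup.mk'_apply, QuotientGroup.eq_one_iff]
  -- pull back membership
  have hpull : ∀ y : G, π y ∈ H.map π → y ∈ H := by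
    rintro y ⟨h, hh, hhy⟩
    have h1 : h⁻¹ * y ∈ C := by
      rw [← hπ1, map_mul, map_inv, hhy, inv_mul_cancel]
    have : y = h * (h⁻¹ * y) := by group
    rw [this]; exact H.mul_mem hh (hCH h1)
  obtain ⟨Q, hQ⟩ : ∃ Q : Subgroup (G ⧸ C), Q = C₁.map π := ⟨_, rfl⟩
  have hQp : IsPGroup p ↥Q := by
    rintro ⟨q, hq⟩
    rw [hQ] at hq
    obtain ⟨x, hx, rfl⟩ := hq
    obtain ⟨k, hk⟩ := hp x hx
    refine ⟨k, Subtype.ext ?_⟩
    show π x ^ (p ^ k) = 1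
    rw [← map_pow, hπ1]; exact hk
  haveI : Group.IsNilpotent ↥Q := hQp.isNilpotent
  have hnc := Group.normalizerCondition_of_isNilpotent (G := ↥Q)
  obtain ⟨Hq, hHq⟩ : ∃ Hq : Subgroup ↥Q, Hq = (H.map π).subgroupOf Q := ⟨_, rfl⟩
  have hlt : Hq < ⊤ := by
    rw [lt_top_iff_ne_top]
    intro htop
    apply hne
    refine le_antisymm hHC₁ (fun x hx => ?_)
    have h1 : (⟨π x, by rw [hQ]; exact Subgroup.mem_map_of_mem π hx⟩ : ↥Q) ∈ Hq := by
      rw [htop]; exact Subgroup.mem_top _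
    rw [hHq, Subgroup.mem_subgroupOf] at h1
    exact hpull x h1
  obtain ⟨q, hqN, hqH⟩ := SetLike.exists_of_lt (hnc Hq hlt)
  obtain ⟨x, hxC₁, hxq⟩ : ∃ x ∈ C₁, π x = (q : G ⧸ C) := by
    have h0 : (q : G ⧸ C) ∈ C₁.map π := hQ ▸ q.2
    exact h0
  refine ⟨x, hxC₁, ?_, ?_⟩
  · intro hxH
    apply hqH
    rw [hHq, Subgroup.mem_subgroupOf, ← hxq]
    exact Subgroup.mem_map_of_mem π hxH
  · apply Subgroup.mem_normalizer_fintype
    intro h hh
    have hh' : h ∈ H := hh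
    show x * h * x⁻¹ ∈ H
    apply hpull
    have h1 : (⟨π h, by rw [hQ]; exact Subgroup.mem_map_of_mem π (hHC₁ hh')⟩ : ↥Q) ∈ Hq := by
      rw [hHq, Subgroup.mem_subgroupOf]; exact Subgroup.mem_map_of_mem π hh'
    have h2 := (Subgroup.mem_normalizer_iff.1 hqN _).1 h1
    rw [hHq, Subgroup.mem_subgroupOf] at h2
    have h3 : π (x * h * x⁻¹) = (q : G ⧸ C) * π h * (q : G ⧸ C)⁻¹ := by
      rw [map_mul, map_mul, map_inv, hxq]
    rw [h3]
    exact h2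

/-- Complementedness for all subgroups between `C` and `C₁`, `C₁ / C` a `p`-group. -/
theorem ss_of_pquot (U V : Subgroup G) (hUn : U.Normal) (hVn : V.Normal) (hVU : V ≤ U)
    (hab : ⁅U, U⁆ ≤ V) (C C₁ : Subgroup G) [hCn : C.Normal]
    (hp : ∀ x ∈ C₁, ∃ k : ℕ, x ^ (p ^ k) ∈ C) (h₁ : SS C₁ U V) :
    ∀ H : Subgroup G, C ≤ H → H ≤ C₁ → SS H U V := by
  intro H
  induction H using WellFoundedGT.induction with
  | ind H ih =>
    intro hCH hHC₁
    by_cases hne : H = C₁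
    · rw [hne]; exact h₁
    · obtain ⟨x, hxC₁, hxH, hxN⟩ := normalizer_grow C C₁ H hCH hHC₁ hne hp
      obtain ⟨K, hK⟩ : ∃ K : Subgroup G, K = Subgroup.normalizer (H : Set G) ⊓ C₁ := ⟨_, rfl⟩
      have hHK : H ≤ K := by rw [hK]; exact le_inf Subgroup.le_normalizer hHC₁
      have hlt : H < K := lt_of_le_of_ne hHK (fun h => hxH (by rw [h, hK]; exact ⟨hxN, hxC₁⟩))
      have hKss := ih K hlt (hCH.trans hHK) (by rw [hK]; exact inf_le_right)
      exact clifford_step U V hUn hVn hVU hab K H hHK (by rw [hK]; exact inf_le_left) hKss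

end grow

section quad

variable {G : Type*} [Group G]

/-- Quadratic action on an abelian section from quadratic action on the two parts of an
invariant subgroup and a complement. -/
theorem quad_of_ss (U V : Subgroup G) (hUn : U.Normal) (hVn : V.Normal) (hVU : V ≤ U)
    (hab : ⁅U, U⁆ ≤ V)
    (H A₄ Zb : Subgroup G) (hZbH : Zb ≤ H) (hss : SS H U V)
    (hHA₄ : H ≤ Subgroup.normalizer (A₄ : Set G))
    (h1 : ⁅⁅(U ⊓ A₄) ⊔ V, Zb⁆, Zb⁆ ≤ V) (h2 : ⁅⁅U, Zb⁆, Zb⁆ ≤ A₄) : ⁅⁅U, Zb⁆, Zb⁆ ≤ V := by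
  have hHU : H ≤ Subgroup.normalizer (U : Set G) := by
    rw [Subgroup.normalizer_eq_top_iff.2 hUn]; exact le_top
  have hVtop : ∀ L : Subgroup G, L ≤ Subgroup.normalizer (V : Set G) := by
    intro L; rw [Subgroup.normalizer_eq_top_iff.2 hVn]; exact le_top
  obtain ⟨W, hWdef⟩ : ∃ W : Subgroup G, W = (U ⊓ A₄) ⊔ V := ⟨_, rfl⟩
  rw [← hWdef] at h1
  have hWinv : Inv H U V W := by
    rw [hWdef]
    exact ⟨le_sup_right, sup_le inf_le_left hVU,
      le_normalizer_sup (le_normalizer_inf hHU hHA₄) (hVtop H)⟩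
  obtain ⟨W', hW', hWW', hUWW'⟩ := hss W hWinv
  have hZbW' : Zb ≤ Subgroup.normalizer (W' : Set G) := hZbH.trans hW'.2.2
  have hc1 : ⁅W', Zb⁆ ≤ W' := by
    rw [Subgroup.commutator_comm]
    exact Helper10.commutator_le_of_le_normalizer hZbW'
  have hc2 : ⁅⁅W', Zb⁆, Zb⁆ ≤ W' := (Subgroup.commutator_mono hc1 le_rfl).trans hc1
  have hUc : ∀ L : Subgroup G, ⁅U, L⁆ ≤ U := fun L => by
    haveI := hUn
    exact Subgroup.commutator_le_left U L
  have hVc : ∀ L : Subgroup G, ⁅V, L⁆ ≤ V := fun L => by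
    haveI := hVn
    exact Subgroup.commutator_le_left V L
  have hc3 : ⁅⁅W', Zb⁆, Zb⁆ ≤ U ⊓ A₄ := by
    have h3 : ⁅⁅W', Zb⁆, Zb⁆ ≤ ⁅⁅U, Zb⁆, Zb⁆ :=
      Subgroup.commutator_mono (Subgroup.commutator_mono hW'.2.1 le_rfl) le_rfl
    exact le_inf (h3.trans ((Subgroup.commutator_mono (hUc Zb) le_rfl).trans (hUc Zb)))
      (h3.trans h2)
  have hW'q : ⁅⁅W', Zb⁆, Zb⁆ ≤ V := by
    refine (le_inf (hc3.trans ?_) hc2).trans hWW'
    rw [hWdef]; exact le_sup_left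
  -- the subgroup `T`
  obtain ⟨T, hT⟩ : ∃ T : Subgroup G, T = (⁅W, Zb⁆ ⊔ ⁅W', Zb⁆) ⊔ V := ⟨_, rfl⟩
  have hTU : T ≤ U := by
    rw [hT]
    exact sup_le (sup_le ((Subgroup.commutator_mono hWinv.2.1 le_rfl).trans (hUc Zb))
      ((Subgroup.commutator_mono hW'.2.1 le_rfl).trans (hUc Zb))) hVU
  have hVT : V ≤ T := by rw [hT]; exact le_sup_right
  have hUT : U ≤ Subgroup.normalizer (T : Set G) := le_normalizer_of_between hab hVT hTU
  have hT1 : ⁅W ⊔ W', Zb⁆ ≤ T :=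
    Helper10.sup_commutator_le W W' Zb T ((sup_le hWinv.2.1 hW'.2.1).trans hUT)
      (by rw [hT]; exact le_sup_of_le_left le_sup_left)
      (by rw [hT]; exact le_sup_of_le_left le_sup_right)
  have hT2 : ⁅T, Zb⁆ ≤ V := by
    rw [hT]
    exact Helper10.sup_commutator_le _ V Zb V (hVtop _)
      (Helper10.sup_commutator_le _ _ Zb V (hVtop _) h1 hW'q) (hVc Zb)
  exact (Subgroup.commutator_mono ((Subgroup.commutator_mono hUWW' le_rfl).trans hT1)
    le_rfl).trans hT2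

end quad

end Cfsg.Agent.Helper23.Kq
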