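import Mathlib
import Cfsg.Prelude.Def_LocalEven
import Cfsg.Prelude.Def_ConjugacyFunctors
import Cfsg.Agent.Helper10.KStable
import Cfsg.Agent.Helper23.Kq2

/-!
helper23: the structure of the even case of the K-infinity non-normality lemma (following
helper10's `even_case`): the subgroup `A₄` and its properties, without stability hypotheses.
-/

set_option autoImplicit false

namespace Cfsg.Agent.Helper23.Kq

open Cfsg
open scoped commutatorElement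

section even

variable {X : Type*} [Group X]

theorem le_normalizer_cent {K B : Subgroup X} (h : K ≤ Subgroup.normalizer (B : Set X)) :
    K ≤ Subgroup.normalizer ((Subgroup.centralizer (B : Set X) : Subgroup X) : Set X) := by
  apply Helper16.le_normalizer_of_conj_mem
  intro k hk y hy
  rw [Subgroup.mem_centralizer_iff] at hy ⊢
  intro b hb
  have hb' : k⁻¹ * b * k ∈ B := by
    have := (Subgroup.mem_normalizer_iff.1 (Subgroup.inv_mem _ (h hk)) b).1 hb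
    simpa using this
  have h1 := hy _ hb'
  calc b * (k * y * k⁻¹) = k * ((k⁻¹ * b * k) * y) * k⁻¹ := by group
    _ = k * (y * (k⁻¹ * b * k)) * k⁻¹ := by rw [h1]
    _ = k * y * k⁻¹ * b := by group

/-- The structure of the even case. -/
theorem even_struct (A : Subgroup X) [hAn : A.Normal] (hA2 : A ∈ Cfsg.classTwoSubgroups X)
    (T : Subgroup X) (hTA : ⁅T, A⁆ ≤ A ⊓ Subgroup.centralizer (A : Set X))
    (B : Subgroup X) (hB2 : B ∈ Cfsg.classTwoSubgroups X)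
    (hAB : A ≤ Subgroup.normalizer (B : Set X))
    (hLS : ∀ A' : Subgroup X, A' ≤ A → B ≤ Subgroup.normalizer (A' : Set X) →
      ⁅B, ⁅A', A'⁆⁆ = ⊥ → ⁅⁅B ⊓ Subgroup.centralizer (B : Set X), A'⁆, A'⁆ = ⊥ →
      ⁅B, A'⁆ ≤ B ⊓ Subgroup.centralizer (B : Set X))
    (hZBT : B ⊓ Subgroup.centralizer (B : Set X) ≤ T) :
    ⁅⁅A ⊓ Subgroup.centralizer (A : Set X), B⁆, B⁆ = ⊥ ∧
    ∃ A₄ Y : Subgroup X, A₄ ≤ A ∧ B ≤ Subgroup.normalizer (A₄ : Set X) ∧
      Subgroup.centralizer ((A ⊓ Subgroup.centralizer (A : Set X) : Subgroup X) : Set X) ≤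
        Subgroup.normalizer (A₄ : Set X) ∧
      ⁅⁅A, B⁆, B⁆ ≤ A₄ ∧ ⁅A₄, B⁆ ≤ Y ∧ Y ≤ Subgroup.centralizer (B : Set X) ∧
      A ≤ Subgroup.normalizer (Y : Set X) := by
  obtain ⟨ZA, hZA⟩ : ∃ ZA : Subgroup X, ZA = A ⊓ Subgroup.centralizer (A : Set X) := ⟨_, rfl⟩
  obtain ⟨ZB, hZB⟩ : ∃ ZB : Subgroup X, ZB = B ⊓ Subgroup.centralizer (B : Set X) := ⟨_, rfl⟩
  rw [← hZB] at hLS hZBT
  rw [← hZA] at hTA ⊢
  have hZBB : ZB ≤ B := by rw [hZB]; exact inf_le_left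
  have hZAcA : ⁅ZA, A⁆ = ⊥ := by
    rw [Subgroup.commutator_eq_bot_iff_le_centralizer, hZA]; exact inf_le_right
  have hiii : ∀ A' : Subgroup X, A' ≤ A → ⁅⁅ZB, A'⁆, A'⁆ = ⊥ := by
    intro A' hA'
    rw [eq_bot_iff, ← hZAcA]
    exact Subgroup.commutator_mono ((Subgroup.commutator_mono hZBT hA').trans hTA) hA'
  have hCAn : (Subgroup.centralizer (A : Set X)).Normal := Subgroup.normal_centralizer (H := A)
  have hZAn : ZA.Normal := by rw [hZA]; exact Subgroup.normal_inf_normal _ _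
  have hZAA : ZA ≤ A := by rw [hZA]; exact inf_le_left
  have hZAc : ⁅ZA, ZA⁆ = ⊥ := by
    rw [eq_bot_iff, ← hZAcA]; exact Subgroup.commutator_mono le_rfl hZAA
  have hBZA : ⁅⁅ZA, B⁆, B⁆ = ⊥ := by
    apply Helper10.double_comm_bot_of_le_center
    rw [← hZB]
    refine hLS ZA hZAA ?_ ?_ (hiii ZA hZAA)
    · rw [Subgroup.normalizer_eq_top]; exact le_top
    · rw [hZAc]; exact Subgroup.commutator_bot_right B
  refine ⟨hBZA, ?_⟩
  -- the subgroup `A₄`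
  obtain ⟨A₄, hA₄⟩ : ∃ A₄ : Subgroup X, A₄ = Helper10.quadSub A
      (Subgroup.centralizer (A : Set X) ⊓ Subgroup.centralizer (B : Set X)) inf_le_left :=
    ⟨_, rfl⟩
  have hmem : ∀ x : X, x ∈ A₄ ↔ x ∈ A ∧ ∀ a ∈ A, ⁅x, a⁆ ∈
      Subgroup.centralizer (A : Set X) ⊓ Subgroup.centralizer (B : Set X) := by
    intro x; rw [hA₄]; exact Iff.rfl
  have hA₄A : A₄ ≤ A := fun x hx => ((hmem x).1 hx).1
  have hcl2 : ∀ x ∈ A, ∀ a ∈ A, ⁅x, a⁆ ∈ Subgroup.centralizer (A : Set X) :=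
    fun x hx a ha => hA2 (Subgroup.commutator_mem_commutator hx ha)
  have hAZB : A ⊓ ZB ≤ A₄ := by
    rintro z ⟨hzA, hzZB⟩
    rw [hZB] at hzZB
    have hzc : z ∈ Subgroup.centralizer (B : Set X) := hzZB.2
    rw [Subgroup.mem_centralizer_iff] at hzc
    rw [hmem]
    refine ⟨hzA, fun a ha => ⟨hcl2 z hzA a ha, ?_⟩⟩
    show ⁅z, a⁆ ∈ Subgroup.centralizer (B : Set X)
    rw [Subgroup.mem_centralizer_iff]
    intro b hb
    obtain ⟨u, hu⟩ : ∃ u, u = b * a * b⁻¹ * a⁻¹ := ⟨_, rfl⟩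
    have huA : u ∈ A := by
      rw [hu]; exact A.mul_mem (hAn.conj_mem a ha b) (A.inv_mem ha)
    have huB : u ∈ B := by
      have h1 : a * b⁻¹ * a⁻¹ ∈ B :=
        (Subgroup.mem_normalizer_iff.1 (hAB ha) b⁻¹).1 (B.inv_mem hb)
      have h2 : u = b * (a * b⁻¹ * a⁻¹) := by rw [hu]; group
      rw [h2]; exact B.mul_mem hb h1
    have hzu := hzc u huB
    have hzb := hzc b hb
    have hcu := Subgroup.mem_centralizer_iff.1 (hcl2 z hzA a ha) u huA
    have hbz : b * z * b⁻¹ = z := by rw [hzb, mul_assoc, mul_inv_cancel, mul_one]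
    have hbab : b * a * b⁻¹ = u * a := by rw [hu]; group
    have e1 : b * ⁅z, a⁆ * b⁻¹ =
        (b * z * b⁻¹) * (b * a * b⁻¹) * (b * z * b⁻¹)⁻¹ * (b * a * b⁻¹)⁻¹ := by
      rw [commutatorElement_def]; group
    rw [hbz, hbab] at e1
    have e2 : z * (u * a) * z⁻¹ * (u * a)⁻¹ = u * ⁅z, a⁆ * u⁻¹ := by
      have : z * (u * a) = u * (z * a) := by rw [← mul_assoc, ← hzu, mul_assoc]
      rw [this, commutatorElement_def]; group
    have e3 : u * ⁅z, a⁆ * u⁻¹ = ⁅z, a⁆ := by rw [hcu, mul_assoc, mul_inv_cancel, mul_one]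
    have e4 : b * ⁅z, a⁆ * b⁻¹ = ⁅z, a⁆ := by rw [e1, e2, e3]
    calc b * ⁅z, a⁆ = (b * ⁅z, a⁆ * b⁻¹) * b := by group
      _ = ⁅z, a⁆ * b := by rw [e4]
  have hBA₄ : B ≤ Subgroup.normalizer (A₄ : Set X) := by
    apply Helper16.le_normalizer_of_conj_mem
    intro b hb x hx
    rw [hmem] at hx ⊢
    refine ⟨hAn.conj_mem x hx.1 b, fun a ha => ?_⟩
    have ha' : b⁻¹ * a * b ∈ A := by simpa using hAn.conj_mem a ha b⁻¹
    have hw := hx.2 _ ha'
    have hw2 : ⁅x, b⁻¹ * a * b⁆ ∈ Subgroup.centralizer (B : Set X) := hw.2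
    have e1 : ⁅b * x * b⁻¹, a⁆ = b * ⁅x, b⁻¹ * a * b⁆ * b⁻¹ := by
      simp only [commutatorElement_def]; group
    have hwb : b * ⁅x, b⁻¹ * a * b⁆ = ⁅x, b⁻¹ * a * b⁆ * b :=
      Subgroup.mem_centralizer_iff.1 hw2 b hb
    rw [e1, hwb, mul_assoc, mul_inv_cancel, mul_one]
    exact hw
  have hCA₄ : Subgroup.centralizer (ZA : Set X) ≤ Subgroup.normalizer (A₄ : Set X) := by
    apply Helper16.le_normalizer_of_conj_mem
    intro c hc x hx
    rw [hmem] at hx ⊢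
    refine ⟨hAn.conj_mem x hx.1 c, fun a ha => ?_⟩
    have ha' : c⁻¹ * a * c ∈ A := by simpa using hAn.conj_mem a ha c⁻¹
    have hw := hx.2 _ ha'
    have hw1 : ⁅x, c⁻¹ * a * c⁆ ∈ Subgroup.centralizer (A : Set X) := hw.1
    have hwA : ⁅x, c⁻¹ * a * c⁆ ∈ A := by
      rw [commutatorElement_def]
      exact A.mul_mem (A.mul_mem (A.mul_mem hx.1 ha') (A.inv_mem hx.1)) (A.inv_mem ha')
    have hwZ : ⁅x, c⁻¹ * a * c⁆ ∈ ZA := by rw [hZA]; exact ⟨hwA, hw1⟩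
    have hwc : ⁅x, c⁻¹ * a * c⁆ * c = c * ⁅x, c⁻¹ * a * c⁆ :=
      Subgroup.mem_centralizer_iff.1 hc _ hwZ
    have e1 : ⁅c * x * c⁻¹, a⁆ = c * ⁅x, c⁻¹ * a * c⁆ * c⁻¹ := by
      simp only [commutatorElement_def]; group
    rw [e1, ← hwc, mul_assoc, mul_inv_cancel, mul_one]
    exact hw
  have hA₄c : ⁅B, ⁅A₄, A₄⁆⁆ = ⊥ := by
    rw [Subgroup.commutator_comm, Subgroup.commutator_eq_bot_iff_le_centralizer,
      Subgroup.commutator_le]
    intro x hx y hy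
    exact (((hmem x).1 hx).2 y (hA₄A hy)).2
  have hBA₄Z : ⁅B, A₄⁆ ≤ ZB := hLS A₄ hA₄A hBA₄ hA₄c (hiii A₄ hA₄A)
  have hABB : ⁅⁅A, B⁆, B⁆ ≤ A₄ := by
    have h1 : ⁅A, B⁆ ≤ B := Helper10.commutator_le_of_le_normalizer hAB
    have h2 : ⁅A, B⁆ ≤ A := Subgroup.commutator_le_left A B
    have h3 : ⁅⁅A, B⁆, B⁆ ≤ A :=
      (Subgroup.commutator_mono h2 le_rfl).trans (Subgroup.commutator_le_left A B)
    have h4 : ⁅⁅A, B⁆, B⁆ ≤ ⁅B, B⁆ := Subgroup.commutator_mono h1 le_rfl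
    have h5 : ⁅B, B⁆ ≤ ZB := by
      rw [hZB]
      exact le_inf (Helper10.commutator_le_of_le_normalizer Subgroup.le_normalizer) hB2
    exact (le_inf h3 (h4.trans h5)).trans hAZB
  have hAC : A ≤ Subgroup.centralizer (ZA : Set X) := by
    intro a ha
    rw [Subgroup.mem_centralizer_iff]
    intro z hz
    rw [hZA] at hz
    have hzc : z ∈ Subgroup.centralizer (A : Set X) := hz.2
    exact (Subgroup.mem_centralizer_iff.1 hzc a ha).symm
  refine ⟨A₄, A₄ ⊓ Subgroup.centralizer (B : Set X), hA₄A, hBA₄, hCA₄, hABB, ?_, inf_le_right,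
    le_normalizer_inf (hAC.trans hCA₄) (le_normalizer_cent hAB)⟩
  refine le_inf ?_ ?_
  · rw [Subgroup.commutator_comm]
    exact Helper10.commutator_le_of_le_normalizer hBA₄
  · rw [Subgroup.commutator_comm]
    exact hBA₄Z.trans (by rw [hZB]; exact inf_le_right)

end even

end Cfsg.Agent.Helper23.Kq
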