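import Mathlib
import Cfsg.Prelude.Def_LocalEven
import Cfsg.Prelude.Def_ConjugacyFunctors
import Cfsg.Agent.Helper10.KStable
import Cfsg.Agent.Helper23.Kq1
import Cfsg.Agent.Helper23.Kq3
import Cfsg.Agent.Helper23.Kq4

/-!
helper23: if a K-infinity subgroup of a Sylow `p`-subgroup `S` of a constrained group `X` is not
normal, some element of `S` outside `O_p(X)` acts quadratically and nontrivially on a chief factor
of `X` inside a critical subgroup `A` of `O_p(X)` (and cubically on `A / Z(A)`, quadratically on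
`Z(A)`).
-/

set_option autoImplicit false

namespace Cfsg.Agent.Helper23.Kq

open Cfsg
open scoped commutatorElement

universe u

theorem exists_not_mem_two {G : Type*} [Group G] {B T C : Subgroup G} (hT : ¬ B ≤ T)
    (hC : ¬ B ≤ C) : ∃ g ∈ B, g ∉ T ∧ g ∉ C := by
  obtain ⟨g₁, hg₁B, hg₁T⟩ := SetLike.not_le_iff_exists.1 hT
  obtain ⟨g₂, hg₂B, hg₂C⟩ := SetLike.not_le_iff_exists.1 hC
  by_cases h1 : g₁ ∈ C
  · by_cases h2 : g₂ ∈ T
    · refine ⟨g₁ * g₂, B.mul_mem hg₁B hg₂B, fun h => hg₁T ?_, fun h => hg₂C ?_⟩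
      · have := T.mul_mem h (T.inv_mem h2)
        simpa using this
      · have := C.mul_mem (C.inv_mem h1) h
        simpa using this
    · exact ⟨g₂, hg₂B, h2, hg₂C⟩
  · exact ⟨g₁, hg₁B, hg₁T, h1⟩

section main

variable {X : Type u} [Group X] [Finite X] {p : ℕ} [Fact p.Prime]

theorem not_all_le (S : Sylow p X)
    (hK : ¬ (inducedFunctor Cfsg.kInfLower (S : Subgroup X)).Normal ∨
      ¬ (inducedFunctor Cfsg.kInfUpper (S : Subgroup X)).Normal) :
    ¬ ∀ n : ℕ, Cfsg.kSeqEven ↥(S : Subgroup X) n ≤ (pCore p X).subgroupOf (S : Subgroup X) ∧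
      Cfsg.kSeqOdd ↥(S : Subgroup X) (n + 1) ≤ (pCore p X).subgroupOf (S : Subgroup X) := by
  intro hall
  obtain ⟨h1, h2⟩ := Helper10.ind_kInf_eq_of_all_le S hall
  rcases hK with hK | hK
  · apply hK
    rw [h1]
    exact Helper10.ind_pCore_normal (fun (Q : Type u) [Group Q] => Cfsg.kInfLower Q)
      Helper10.isCharPFunctor_kInfLower
  · apply hK
    rw [h2]
    exact Helper10.ind_pCore_normal (fun (Q : Type u) [Group Q] => Cfsg.kInfUpper Q)
      Helper10.isCharPFunctor_kInfUpper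

/-- **Quadratic chief factor** from non-normality of a K-infinity subgroup in a constrained
group. -/
theorem exists_quad_chief (S : Sylow p X)
    (hK : ¬ (inducedFunctor Cfsg.kInfLower (S : Subgroup X)).Normal ∨
      ¬ (inducedFunctor Cfsg.kInfUpper (S : Subgroup X)).Normal)
    (hcons : Subgroup.centralizer ((pCore p X : Subgroup X) : Set X) ≤ pCore p X)
    (A : Subgroup X) [hAn : A.Normal] (hAT : A ≤ pCore p X) (hA2 : A ∈ Cfsg.classTwoSubgroups X)
    (hTA : ⁅pCore p X, A⁆ ≤ A ⊓ Subgroup.centralizer (A : Set X))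
    (hC : pCore p X ⊓ Subgroup.centralizer (A : Set X) ≤ A) :
    ∃ g : X, g ∈ (S : Subgroup X) ∧ g ∉ pCore p X ∧
      ⁅⁅⁅A, Subgroup.zpowers g⁆, Subgroup.zpowers g⁆, Subgroup.zpowers g⁆ ≤
        A ⊓ Subgroup.centralizer (A : Set X) ∧
      ⁅⁅A ⊓ Subgroup.centralizer (A : Set X), Subgroup.zpowers g⁆, Subgroup.zpowers g⁆ = ⊥ ∧
      ∃ U V : Subgroup X, IsChiefFactor U V ∧ U ≤ A ∧
        ⁅⁅U, Subgroup.zpowers g⁆, Subgroup.zpowers g⁆ ≤ V ∧ ¬ ⁅U, Subgroup.zpowers g⁆ ≤ V := by
  have hall := not_all_le S hK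
  have hcentA := Helper10.cent_crit hcons A hAT hC
  have hAp : IsPGroup p A := (Helper10.pCore_isPGroup p X).to_le hAT
  have hcases := Helper10.kg_cases S hall A hAT hA2 hTA
  obtain ⟨ZA, hZA⟩ : ∃ ZA : Subgroup X, ZA = A ⊓ Subgroup.centralizer (A : Set X) := ⟨_, rfl⟩
  have hCAn : (Subgroup.centralizer (A : Set X)).Normal := Subgroup.normal_centralizer (H := A)
  have hZAn : ZA.Normal := by rw [hZA]; exact Subgroup.normal_inf_normal _ _
  have hZAA : ZA ≤ A := by rw [hZA]; exact inf_le_left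
  have hZAp : IsPGroup p ZA := hAp.to_le hZAA
  have hAA : ⁅A, A⁆ ≤ ZA := by
    rw [hZA]; exact le_inf (Subgroup.commutator_le_left A A) hA2
  rw [← hZA] at hcases ⊢
  rcases hcases with ⟨B, hBS, hBT, hBZ, hBA⟩ | ⟨B, hBS, hBT, hB2, hAB, hLS⟩
  · -- odd case
    obtain ⟨g, hgB, hgT⟩ := SetLike.not_le_iff_exists.1 hBT
    have hz : Subgroup.zpowers g ≤ B := (Subgroup.zpowers_le).2 hgB
    have hq1 : ⁅⁅ZA, Subgroup.zpowers g⁆, Subgroup.zpowers g⁆ = ⊥ :=
      le_bot_iff.1 (hBZ ▸ Subgroup.commutator_mono (Subgroup.commutator_mono le_rfl hz) hz)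
    have hq2 : ⁅⁅A, Subgroup.zpowers g⁆, Subgroup.zpowers g⁆ ≤ ZA :=
      (Subgroup.commutator_mono (Subgroup.commutator_mono le_rfl hz) hz).trans hBA
    refine ⟨g, hBS hgB, hgT, ?_, hq1, ?_⟩
    · exact (Subgroup.commutator_mono hq2 le_rfl).trans (Subgroup.commutator_le_left ZA _)
    · obtain ⟨U, V, hUV, hty, hnc⟩ := exists_chief_not_cent ZA A hZAn hAn hZAA hAp hcentA g hgT
      rcases hty with hUZ | ⟨hZV, hUA⟩
      · refine ⟨U, V, hUV, hUZ.trans hZAA, ?_, hnc⟩
        have h5 : ⁅⁅U, Subgroup.zpowers g⁆, Subgroup.zpowers g⁆ ≤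
            ⁅⁅ZA, Subgroup.zpowers g⁆, Subgroup.zpowers g⁆ :=
          Subgroup.commutator_mono (Subgroup.commutator_mono hUZ le_rfl) le_rfl
        rw [hq1] at h5; exact h5.trans bot_le
      · refine ⟨U, V, hUV, hUA, ?_, hnc⟩
        exact ((Subgroup.commutator_mono (Subgroup.commutator_mono hUA le_rfl) le_rfl).trans
          hq2).trans hZV
  · -- even case
    have h3 : ⁅⁅⁅A, B⁆, B⁆, B⁆ = ⊥ := Helper10.triple_comm_bot_of_normalizes hB2 hAB
    have hcubic : ∀ g ∈ B,
        ⁅⁅⁅A, Subgroup.zpowers g⁆, Subgroup.zpowers g⁆, Subgroup.zpowers g⁆ ≤ ZA := by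
      intro g hg
      have hz : Subgroup.zpowers g ≤ B := (Subgroup.zpowers_le).2 hg
      have h5 := Subgroup.commutator_mono (Subgroup.commutator_mono
        (Subgroup.commutator_mono (le_refl A) hz) hz) hz
      rw [h3] at h5
      exact h5.trans bot_le
    by_cases hZBT : B ⊓ Subgroup.centralizer (B : Set X) ≤ pCore p X
    · obtain ⟨hBZA, A₄, Y, hA₄A, hBA₄, hCA₄, hABB, hA₄Y, hYB, hAY⟩ :=
        even_struct A hA2 (pCore p X) hTA B hB2 hAB hLS hZBT
      rw [← hZA] at hBZA hCA₄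
      have hquadZ : ∀ g ∈ B, ⁅⁅ZA, Subgroup.zpowers g⁆, Subgroup.zpowers g⁆ = ⊥ := by
        intro g hg
        have hz : Subgroup.zpowers g ≤ B := (Subgroup.zpowers_le).2 hg
        exact le_bot_iff.1
          (hBZA ▸ Subgroup.commutator_mono (Subgroup.commutator_mono le_rfl hz) hz)
      by_cases hBC₁ : B ≤ chiefC ZA
      · -- the Clifford case
        obtain ⟨g, hgB, hgT⟩ := SetLike.not_le_iff_exists.1 hBT
        have hz : Subgroup.zpowers g ≤ B := (Subgroup.zpowers_le).2 hgB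
        refine ⟨g, hBS hgB, hgT, hcubic g hgB, hquadZ g hgB, ?_⟩
        obtain ⟨U, V, hUV, hty, hnc⟩ :=
          exists_chief_not_cent ZA A hZAn hAn hZAA hAp hcentA g hgT
        rcases hty with hUZ | ⟨hZV, hUA⟩
        · exact absurd (comm_le_of_mem_chiefC (hBC₁ hgB) hUV hUZ) hnc
        · refine ⟨U, V, hUV, hUA, ?_, hnc⟩
          have hVU : V ≤ U := hUV.1.le
          have hUn : U.Normal := hUV.2.1
          have hVn : V.Normal := hUV.2.2.1
          have hab : ⁅U, U⁆ ≤ V := ((Subgroup.commutator_mono hUA hUA).trans hAA).trans hZV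
          obtain ⟨Cz, hCz⟩ : ∃ Cz : Subgroup X, Cz = Subgroup.centralizer (ZA : Set X) :=
            ⟨_, rfl⟩
          haveI hCzn : Cz.Normal := by
            rw [hCz]; exact Subgroup.normal_centralizer (H := ZA)
          have hCzC₁ : Cz ≤ chiefC ZA := by
            rintro c hc U' V' ⟨-, hU'Z⟩ u hu
            have h5 : ⁅u, c⁆ = 1 := by
              rw [hCz, Subgroup.mem_centralizer_iff] at hc
              rw [commutatorElement_eq_one_iff_commute]
              exact hc u (hU'Z hu)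
            rw [h5]; exact V'.one_mem
          have hss₁ : SS (chiefC ZA) U V :=
            clifford_step U V hUn hVn hVU hab ⊤ (chiefC ZA) le_top
              (Subgroup.normalizer_eq_top_iff.2 (chiefC_normal ZA)).ge (ss_top hUV)
          have hpq : ∀ x ∈ chiefC ZA, ∃ k : ℕ, x ^ (p ^ k) ∈ Cz := by
            intro x hx; rw [hCz]; exact chiefC_pow_mem ZA hZAn hZAp x hx
          obtain ⟨H, hH⟩ : ∃ H : Subgroup X, H = B ⊔ Cz := ⟨_, rfl⟩
          have hssH : SS H U V :=
            ss_of_pquot U V hUn hVn hVU hab Cz (chiefC ZA) hpq hss₁ H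
              (by rw [hH]; exact le_sup_right) (by rw [hH]; exact sup_le hBC₁ hCzC₁)
          have hHA₄ : H ≤ Subgroup.normalizer (A₄ : Set X) := by
            rw [hH, hCz]; exact sup_le hBA₄ hCA₄
          have hVtop : ∀ L : Subgroup X, L ≤ Subgroup.normalizer (V : Set X) := by
            intro L; rw [Subgroup.normalizer_eq_top_iff.2 hVn]; exact le_top
          have hVc : ∀ L : Subgroup X, ⁅V, L⁆ ≤ V := fun L => by
            haveI := hVn
            exact Subgroup.commutator_le_left V L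
          have hcb : ⁅Y, Subgroup.zpowers g⁆ = ⊥ := by
            rw [Subgroup.commutator_eq_bot_iff_le_centralizer]
            exact hYB.trans (Subgroup.centralizer_le (fun y hy => hz hy))
          have h1 : ⁅⁅(U ⊓ A₄) ⊔ V, Subgroup.zpowers g⁆, Subgroup.zpowers g⁆ ≤ V := by
            have hT1 : ⁅(U ⊓ A₄) ⊔ V, Subgroup.zpowers g⁆ ≤ Y ⊔ V := by
              apply Helper10.sup_commutator_le
              · exact (sup_le (inf_le_left.trans hUA) (hVU.trans hUA)).trans
                  (le_normalizer_sup hAY (hVtop A))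
              · exact le_sup_of_le_left ((Subgroup.commutator_mono inf_le_right hz).trans hA₄Y)
              · exact le_sup_of_le_right (hVc _)
            refine (Subgroup.commutator_mono hT1 le_rfl).trans ?_
            exact Helper10.sup_commutator_le Y V _ V (hVtop _) (by rw [hcb]; exact bot_le)
              (hVc _)
          have h2 : ⁅⁅U, Subgroup.zpowers g⁆, Subgroup.zpowers g⁆ ≤ A₄ :=
            (Subgroup.commutator_mono (Subgroup.commutator_mono hUA hz) hz).trans hABB
          exact quad_of_ss U V hUn hVn hVU hab H A₄ (Subgroup.zpowers g)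
            (hz.trans (by rw [hH]; exact le_sup_left)) hssH hHA₄ h1 h2
      · -- `B ≰ C₁`
        obtain ⟨g, hgB, hgT, hgC⟩ := exists_not_mem_two hBT hBC₁
        obtain ⟨U, V, hUV, hUZ, hnc⟩ := exists_chief_of_not_mem_chiefC hgC
        refine ⟨g, hBS hgB, hgT, hcubic g hgB, hquadZ g hgB, U, V, hUV, hUZ.trans hZAA, ?_, hnc⟩
        have h5 : ⁅⁅U, Subgroup.zpowers g⁆, Subgroup.zpowers g⁆ ≤
            ⁅⁅ZA, Subgroup.zpowers g⁆, Subgroup.zpowers g⁆ :=
          Subgroup.commutator_mono (Subgroup.commutator_mono hUZ le_rfl) le_rfl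
        rw [hquadZ g hgB] at h5; exact h5.trans bot_le
    · -- `Z(B) ≰ O_p`
      obtain ⟨z, hzZB, hzT⟩ := SetLike.not_le_iff_exists.1 hZBT
      have hzB : z ∈ B := hzZB.1
      have hZBA : A ≤ Subgroup.normalizer
          ((B ⊓ Subgroup.centralizer (B : Set X) : Subgroup X) : Set X) :=
        le_normalizer_inf hAB (le_normalizer_cent hAB)
      have hzz : Subgroup.zpowers z ≤ B ⊓ Subgroup.centralizer (B : Set X) :=
        (Subgroup.zpowers_le).2 hzZB
      have hZBc : ⁅B ⊓ Subgroup.centralizer (B : Set X),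
          B ⊓ Subgroup.centralizer (B : Set X)⁆ = ⊥ := by
        rw [Subgroup.commutator_eq_bot_iff_le_centralizer]
        exact inf_le_right.trans (Subgroup.centralizer_le (fun y hy => hy.1))
      have hzq : ⁅⁅A, Subgroup.zpowers z⁆, Subgroup.zpowers z⁆ = ⊥ := by
        rw [eq_bot_iff, ← hZBc]
        exact Subgroup.commutator_mono ((Subgroup.commutator_mono le_rfl hzz).trans
          (Helper10.commutator_le_of_le_normalizer hZBA)) hzz
      refine ⟨z, hBS hzB, hzT, hcubic z hzB, ?_, ?_⟩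
      · rw [eq_bot_iff, ← hzq]
        exact Subgroup.commutator_mono (Subgroup.commutator_mono hZAA le_rfl) le_rfl
      · obtain ⟨U, V, hUV, hty, hnc⟩ :=
          exists_chief_not_cent ZA A hZAn hAn hZAA hAp hcentA z hzT
        have hUA : U ≤ A := by
          rcases hty with h | ⟨-, h⟩
          · exact h.trans hZAA
          · exact h
        refine ⟨U, V, hUV, hUA, ?_, hnc⟩
        have h5 : ⁅⁅U, Subgroup.zpowers z⁆, Subgroup.zpowers z⁆ ≤
            ⁅⁅A, Subgroup.zpowers z⁆, Subgroup.zpowers z⁆ :=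
          Subgroup.commutator_mono (Subgroup.commutator_mono hUA le_rfl) le_rfl
        rw [hzq] at h5; exact h5.trans bot_le

end main

end Cfsg.Agent.Helper23.Kq
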