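import Mathlib
import Cfsg.Prelude.Def_LocalEven
import Cfsg.Prelude.Def_ConjugacyFunctors
import Cfsg.Agent.Helper10.KTransfer
import Cfsg.Agent.Helper10.QStab
import Cfsg.Agent.S0093

/-!
helper23: a chief factor on which an element acts quadratically and nontrivially gives a quotient
which is not `p`-stable (normalizer form); existence of a critical-type subgroup of `O_p`.
-/

set_option autoImplicit false

namespace Cfsg.Agent.Helper23.Kq

open Cfsg
open scoped commutatorElement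

universe u

section fixed

variable {Y : Type*} [Group Y] [Finite Y] {p : ℕ} [Fact p.Prime]

/-- A subgroup acting on a nontrivial normal `p`-subgroup as a `p`-group has a nontrivial fixed
point. -/
theorem exists_fixed (P K : Subgroup Y) [hPn : P.Normal] (hPp : IsPGroup p P) (hP : P ≠ ⊥)
    (hK : ∀ x ∈ K, ∃ k : ℕ, x ^ (p ^ k) ∈ Subgroup.centralizer (P : Set Y)) :
    ∃ u ∈ P, u ≠ 1 ∧ ∀ x ∈ K, x * u * x⁻¹ = u := by
  classical
  obtain ⟨ρ, hρ⟩ : ∃ ρ : ↥K →* MulAut ↥P, ρ = (MulAut.conjNormal (H := P)).comp K.subtype :=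
    ⟨_, rfl⟩
  have hρapp : ∀ (x : ↥K) (u : ↥P), ((ρ x) u : Y) = (x : Y) * u * (x : Y)⁻¹ := by
    intro x u; rw [hρ]; rfl
  have hQp : IsPGroup p ↥ρ.range := by
    rintro ⟨q, hq⟩
    obtain ⟨x, rfl⟩ := hq
    obtain ⟨k, hk⟩ := hK x x.2
    refine ⟨k, Subtype.ext ?_⟩
    show (ρ x) ^ (p ^ k) = 1
    rw [← map_pow]
    ext u
    rw [hρapp]
    have h1 := Subgroup.mem_centralizer_iff.1 hk (u : Y) u.2
    have h2 : ((x ^ (p ^ k) : ↥K) : Y) = (x : Y) ^ (p ^ k) := rfl
    rw [h2, ← h1, mul_assoc, mul_inv_cancel, mul_one]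
    rfl
  have hcard : p ∣ Nat.card ↥P := by
    rcases hPp.card_eq_or_dvd with h | h
    · exact absurd (Subgroup.card_eq_one.1 h) hP
    · exact h
  have h1 : (1 : ↥P) ∈ MulAction.fixedPoints ↥ρ.range ↥P := by
    intro q
    exact map_one q.1
  obtain ⟨b, hb, hne⟩ := hQp.exists_fixed_point_of_prime_dvd_card_of_fixed_point ↥P hcard h1
  refine ⟨b, b.2, fun h => hne (Subtype.ext h.symm), fun x hx => ?_⟩
  have h2 : (ρ ⟨x, hx⟩) b = b := hb ⟨ρ ⟨x, hx⟩, ⟨⟨x, hx⟩, rfl⟩⟩
  have h3 := congrArg Subtype.val h2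
  rw [hρapp] at h3
  exact h3

end fixed

section nps

variable {X : Type u} [Group X] [Finite X] {p : ℕ} [Fact p.Prime]

/-- A chief factor with quadratic nontrivial action gives a non-`p`-stable quotient. -/
theorem not_nps_of_chief {U V : Subgroup X} (hUV : IsChiefFactor U V) (hUp : IsPGroup p U)
    (g : X) (hq : ⁅⁅U, Subgroup.zpowers g⁆, Subgroup.zpowers g⁆ ≤ V)
    (hn : ¬ ⁅U, Subgroup.zpowers g⁆ ≤ V) :
    ∃ (N : Subgroup X) (_ : N.Normal), ¬ IsNormalizerPStable p (X ⧸ N) := by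
  obtain ⟨hVU, hUn, hVn, hch⟩ := hUV
  refine ⟨V, hVn, fun hst => hn ?_⟩
  haveI := hVn
  have hQ := Helper10.qstab_of_nps hst
  obtain ⟨π, hπ⟩ : ∃ π : X →* X ⧸ V, π = QuotientGroup.mk' V := ⟨_, rfl⟩
  have hπs : Function.Surjective π := by rw [hπ]; exact QuotientGroup.mk'_surjective V
  have hπ1 : ∀ x : X, π x = 1 ↔ x ∈ V := by
    intro x; rw [hπ, QuotientGroup.mk'_apply, QuotientGroup.eq_one_iff]
  obtain ⟨P, hP⟩ : ∃ P : Subgroup (X ⧸ V), P = U.map π := ⟨_, rfl⟩
  haveI hPn : P.Normal := by rw [hP]; exact hUn.map π hπs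
  have hPp : IsPGroup p P := by rw [hP]; exact hUp.map π
  have hPne : P ≠ ⊥ := by
    intro h
    apply not_le_of_gt hVU
    intro u hu
    rw [← hπ1]
    have h1 : π u ∈ P := by rw [hP]; exact Subgroup.mem_map_of_mem π hu
    rw [h] at h1; exact Subgroup.mem_bot.1 h1
  have hq2 : ⁅⁅P, Subgroup.zpowers (π g)⁆, Subgroup.zpowers (π g)⁆ = ⊥ := by
    rw [hP, ← MonoidHom.map_zpowers, ← Subgroup.map_commutator, ← Subgroup.map_commutator,
      eq_bot_iff]
    refine (Subgroup.map_mono hq).trans (le_of_eq ?_)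
    rw [Subgroup.map_eq_bot_iff, hπ, QuotientGroup.ker_mk']
  obtain ⟨Kb, hKbn, hgKb, hKb⟩ := hQ P hPn hPp (π g) hq2
  obtain ⟨ub, hubP, hub1, hubfix⟩ := exists_fixed P Kb hPp hPne hKb
  obtain ⟨Fb, hFb⟩ : ∃ Fb : Subgroup (X ⧸ V),
      Fb = P ⊓ Subgroup.centralizer (Kb : Set (X ⧸ V)) := ⟨_, rfl⟩
  have hFbn : Fb.Normal := by
    haveI := hKbn
    haveI : (Subgroup.centralizer (Kb : Set (X ⧸ V))).Normal :=
      Subgroup.normal_centralizer (H := Kb)
    rw [hFb]; exact Subgroup.normal_inf_normal _ _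
  obtain ⟨F, hF⟩ : ∃ F : Subgroup X, F = Fb.comap π ⊓ U := ⟨_, rfl⟩
  have hFn : F.Normal := by
    haveI := hUn
    haveI : (Fb.comap π).Normal := hFbn.comap π
    rw [hF]; exact Subgroup.normal_inf_normal _ _
  have hVF : V ≤ F := by
    intro v hv
    rw [hF]
    refine ⟨?_, hVU.le hv⟩
    show π v ∈ Fb
    rw [(hπ1 v).2 hv]; exact Fb.one_mem
  have hFU : F ≤ U := by rw [hF]; exact inf_le_right
  rcases hch F hFn hVF hFU with h | h
  · exfalso
    rw [hP] at hubP
    obtain ⟨u, hu, rfl⟩ := hubP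
    have huF : u ∈ F := by
      rw [hF]
      refine ⟨?_, hu⟩
      show π u ∈ Fb
      rw [hFb]
      refine ⟨by rw [hP]; exact Subgroup.mem_map_of_mem π hu, ?_⟩
      show π u ∈ Subgroup.centralizer (Kb : Set (X ⧸ V))
      rw [Subgroup.mem_centralizer_iff]
      intro x hx
      have h5 := hubfix x hx
      calc x * π u = (x * π u * x⁻¹) * x := by group
        _ = π u * x := by rw [h5]
    rw [h] at huF
    exact hub1 ((hπ1 u).2 huF)
  · rw [Subgroup.commutator_le]
    intro u hu y hy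
    rw [← hπ1, map_commutatorElement]
    have huF : u ∈ F := by rw [h]; exact hu
    rw [hF] at huF
    have h1 : π u ∈ Fb := huF.1
    rw [hFb] at h1
    have h2 : π y ∈ Kb := by
      have h6 : π y ∈ Subgroup.zpowers (π g) := by
        rw [← MonoidHom.map_zpowers]; exact Subgroup.mem_map_of_mem π hy
      exact (Subgroup.zpowers_le.2 hgKb) h6
    have h3 := Subgroup.mem_centralizer_iff.1 h1.2 (π y) h2
    rw [commutatorElement_eq_one_iff_commute]
    exact h3.symm

/-- A critical-type subgroup of `O_p(X)`. -/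
theorem exists_crit (p : ℕ) [Fact p.Prime] (X : Type u) [Group X] [Finite X] :
    ∃ A : Subgroup X, A.Normal ∧ A ≤ pCore p X ∧ A ∈ Cfsg.classTwoSubgroups X ∧
      ⁅pCore p X, A⁆ ≤ A ⊓ Subgroup.centralizer (A : Set X) ∧
      pCore p X ⊓ Subgroup.centralizer (A : Set X) ≤ A := by
  haveI hPn : (pCore p X).Normal := Helper10.pCore_normal p X
  have hPp : IsPGroup p ↥(pCore p X) := Helper10.pCore_isPGroup p X
  obtain ⟨Hc, hchar, -, hHtop, hcent⟩ := Cfsg.Agent.S0093.result (P := ↥(pCore p X)) hPp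
  have hf : Function.Injective (pCore p X).subtype := Subgroup.subtype_injective _
  obtain ⟨A, hAdef⟩ : ∃ A : Subgroup X, A = Hc.map (pCore p X).subtype := ⟨_, rfl⟩
  have hAn : A.Normal := by
    haveI := hchar
    rw [hAdef]
    exact ConjAct.normal_of_characteristic_of_normal
  have hAT : A ≤ pCore p X := by rw [hAdef]; exact Subgroup.map_subtype_le _
  have hHc2 : Hc ∈ Cfsg.classTwoSubgroups ↥(pCore p X) :=
    (Subgroup.commutator_mono le_rfl le_top).trans (hHtop.trans inf_le_right)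
  have hA2 : A ∈ Cfsg.classTwoSubgroups X := by
    rw [hAdef]; exact (Helper10.classTwo_map_iff _ hf Hc).2 hHc2
  have htop : (⊤ : Subgroup ↥(pCore p X)).map (pCore p X).subtype = pCore p X := by
    rw [← MonoidHom.range_eq_map, Subgroup.range_subtype]
  have hTA : ⁅pCore p X, A⁆ ≤ A ⊓ Subgroup.centralizer (A : Set X) := by
    have h1 : (⁅Hc, (⊤ : Subgroup ↥(pCore p X))⁆).map (pCore p X).subtype ≤
        (Hc ⊓ Subgroup.centralizer (Hc : Set ↥(pCore p X))).map (pCore p X).subtype :=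
      Subgroup.map_mono hHtop
    rw [Subgroup.map_commutator, htop, Helper10.map_inf_centralizer_inj _ hf, ← hAdef] at h1
    rw [Subgroup.commutator_comm]
    exact h1
  have hC : pCore p X ⊓ Subgroup.centralizer (A : Set X) ≤ A := by
    rintro x ⟨hxP, hxc⟩
    have h1 : (⟨x, hxP⟩ : ↥(pCore p X)) ∈ Subgroup.centralizer (Hc : Set ↥(pCore p X)) := by
      rw [Subgroup.mem_centralizer_iff]
      intro y hy
      apply Subtype.ext
      have hxc' : x ∈ Subgroup.centralizer (A : Set X) := hxc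
      rw [Subgroup.mem_centralizer_iff] at hxc'
      exact hxc' (y : X) (by rw [hAdef]; exact Subgroup.mem_map_of_mem _ hy)
    rw [hAdef]
    exact ⟨⟨x, hxP⟩, hcent h1, rfl⟩
  exact ⟨A, hAn, hAT, hA2, hTA, hC⟩

end nps

end Cfsg.Agent.Helper23.Kq
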