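import Mathlib

/-!
Helper library (helper23): a group of automorphisms `K A` of an elementary abelian `2`-group `V`,
with `K` abelian of odd order normalized by the elementary abelian `2`-group `A` acting
faithfully on `K` and quadratically on `V`. If `|V| ≤ |A| |C_V(A)|` (`A` is an offender) then
some element of `A` is a transvection.
-/

set_option autoImplicit false

namespace Cfsg.Agent.Helper23

section Offender

variable {V : Type*} [Group V]

/-- The fixed points of a group of automorphisms. -/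
def fixSub (B : Subgroup (MulAut V)) : Subgroup V where
  carrier := {v | ∀ c ∈ B, c v = v}
  one_mem' := fun c _ => map_one c
  mul_mem' := fun {x y} hx hy c hc => by
    show c (x * y) = x * y
    rw [map_mul, hx c hc, hy c hc]
  inv_mem' := fun {x} hx c hc => by
    show c x⁻¹ = x⁻¹
    rw [map_inv, hx c hc]

theorem mem_fixSub {B : Subgroup (MulAut V)} {v : V} : v ∈ fixSub B ↔ ∀ c ∈ B, c v = v :=
  Iff.rfl

theorem fixSub_mono {B B' : Subgroup (MulAut V)} (h : B ≤ B') : fixSub B' ≤ fixSub B :=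
  fun _ hv c hc => hv c (h hc)

/-- A minimal quadratic offender is generated by a transvection. -/
theorem exists_transvection [Finite V] (hcomm : ∀ x y : V, x * y = y * x)
    (hexp : ∀ v : V, v * v = 1) (K A : Subgroup (MulAut V))
    (hKc : ∀ x ∈ K, ∀ y ∈ K, x * y = y * x) (hKodd : Odd (Nat.card K))
    (hAc : ∀ x ∈ A, ∀ y ∈ A, x * y = y * x) (hA2 : ∀ a ∈ A, a * a = 1)
    (hAK : ∀ a ∈ A, ∀ k ∈ K, a * k * a⁻¹ ∈ K)
    (hfaith : ∀ a ∈ A, (∀ k ∈ K, a * k = k * a) → a = 1)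
    (hquad : ∀ a ∈ A, ∀ b ∈ A, ∀ v : V, a (b v * v⁻¹) = b v * v⁻¹)
    (hoff : Nat.card V ≤ Nat.card A * Nat.card (fixSub A)) (hA : A ≠ ⊥) :
    ∃ a ∈ A, a ≠ 1 ∧ ∃ z : V, ∀ v : V, a v = v ∨ a v = v * z := by
  classical
  -- a minimal offender
  obtain ⟨B, ⟨hBA, hBne, hBoff⟩, hmin⟩ := Set.exists_min_image
    {B : Subgroup (MulAut V) | B ≤ A ∧ B ≠ ⊥ ∧ Nat.card V ≤ Nat.card B * Nat.card (fixSub B)}
    (fun B => Nat.card B) (Set.toFinite _) ⟨A, le_rfl, hA, hoff⟩
  obtain ⟨⟨b, hb⟩, hb1'⟩ := (Subgroup.ne_bot_iff_exists_ne_one).1 hBne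
  have hb1 : b ≠ 1 := fun h => hb1' (Subtype.ext h)
  have hbA : b ∈ A := hBA hb
  have hbb : b * b = 1 := hA2 b hbA
  have hbinv : b⁻¹ = b := inv_eq_of_mul_eq_one_left hbb
  -- inverses of elements of `A`
  have hinvA : ∀ c ∈ A, c⁻¹ = c := fun c hc => inv_eq_of_mul_eq_one_left (hA2 c hc)
  -- an element of `K` not centralized by `b`
  obtain ⟨x, hxK, hxb⟩ : ∃ x ∈ K, b * x ≠ x * b := by
    by_contra hcon
    push Not at hcon
    exact hb1 (hfaith b hbA hcon)
  -- odd order facts in `K`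
  have hKsq : ∀ m ∈ K, m * m = 1 → m = 1 := by
    intro m hm hmm
    have h1 : orderOf m ∣ 2 := orderOf_dvd_of_pow_eq_one (by rw [pow_two]; exact hmm)
    have h2 : orderOf m ∣ Nat.card K := by
      have := orderOf_dvd_natCard (⟨m, hm⟩ : ↥K)
      rwa [Subgroup.orderOf_mk] at this
    have h3 : orderOf m ∣ Nat.gcd 2 (Nat.card K) := Nat.dvd_gcd h1 h2
    have h4 : Nat.gcd 2 (Nat.card K) = 1 := Nat.coprime_two_left.2 hKodd
    rw [h4, Nat.dvd_one, orderOf_eq_one_iff] at h3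
    exact h3
  have hKroot : ∀ m ∈ K, ∃ j : ℕ, (m * m) ^ j = m := by
    intro m hm
    have h2 : orderOf m ∣ Nat.card K := by
      have := orderOf_dvd_natCard (⟨m, hm⟩ : ↥K)
      rwa [Subgroup.orderOf_mk] at this
    have hodd : Odd (orderOf m) := Odd.of_dvd_nat hKodd h2
    obtain ⟨j, hj⟩ := hodd
    refine ⟨j + 1, ?_⟩
    rw [← pow_two, ← pow_mul]
    have e : 2 * (j + 1) = orderOf m + 1 := by omega
    rw [e, pow_succ, pow_orderOf_eq_one, one_mul]
  -- the family of nontrivial `B`-invariant subgroups of `K` inverted by `b`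
  let M₀ : Subgroup (MulAut V) :=
    { carrier := {m | m ∈ K ∧ b * m * b⁻¹ = m⁻¹}
      one_mem' := ⟨K.one_mem, by simp⟩
      mul_mem' := by
        rintro m n ⟨hm, hm'⟩ ⟨hn, hn'⟩
        refine ⟨K.mul_mem hm hn, ?_⟩
        have e1 : b * (m * n) * b⁻¹ = (b * m * b⁻¹) * (b * n * b⁻¹) := by group
        rw [e1, hm', hn', mul_inv_rev]
        exact hKc _ (K.inv_mem hm) _ (K.inv_mem hn)
      inv_mem' := by
        rintro m ⟨hm, hm'⟩
        refine ⟨K.inv_mem hm, ?_⟩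
        have e1 : b * m⁻¹ * b⁻¹ = (b * m * b⁻¹)⁻¹ := by group
        rw [e1, hm'] }
  have hM₀fam : M₀ ∈ {M : Subgroup (MulAut V) | M ≠ ⊥ ∧ M ≤ K ∧
      (∀ c ∈ B, ∀ m ∈ M, c * m * c⁻¹ ∈ M) ∧ ∀ m ∈ M, b * m * b⁻¹ = m⁻¹} := by
    refine ⟨?_, ?_, ?_, ?_⟩
    · intro hbot
      have hmem : x⁻¹ * (b * x * b⁻¹) ∈ M₀ := by
        refine ⟨K.mul_mem (K.inv_mem hxK) (hAK b hbA x hxK), ?_⟩
        have e1 : b * (x⁻¹ * (b * x * b⁻¹)) * b⁻¹ = (b * x⁻¹ * b⁻¹) * ((b * b) * x * (b * b)⁻¹) := by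
          group
        rw [e1, hbb]
        group
      rw [hbot, Subgroup.mem_bot] at hmem
      apply hxb
      have e2 : b * x = x * (x⁻¹ * (b * x * b⁻¹)) * b := by group
      rw [e2, hmem, mul_one]
    · intro m hm; exact hm.1
    · rintro c hc m ⟨hm, hm'⟩
      refine ⟨hAK c (hBA hc) m hm, ?_⟩
      have hcb : c * b = b * c := hAc c (hBA hc) b hbA
      have e1 : b * (c * m * c⁻¹) * b⁻¹ = (b * c) * m * (b * c)⁻¹ := by group
      have e2 : (c * m * c⁻¹)⁻¹ = c * (b * m * b⁻¹) * c⁻¹ := by rw [hm']; group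
      rw [e1, e2, ← hcb]
      group
    · intro m hm; exact hm.2
  obtain ⟨M, ⟨hMne, hMK, hMB, hMb⟩, hMmin⟩ := Set.exists_min_image
    {M : Subgroup (MulAut V) | M ≠ ⊥ ∧ M ≤ K ∧ (∀ c ∈ B, ∀ m ∈ M, c * m * c⁻¹ ∈ M) ∧
      ∀ m ∈ M, b * m * b⁻¹ = m⁻¹}
    (fun M => Nat.card M) (Set.toFinite _) ⟨M₀, hM₀fam⟩
  -- every element of `B` centralizes or inverts `M`
  have hdich : ∀ c ∈ B, (∀ m ∈ M, c * m * c⁻¹ = m) ∨ (∀ m ∈ M, c * m * c⁻¹ = m⁻¹) := by
    intro c hc
    have hcc : c * c = 1 := hA2 c (hBA hc)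
    have hcinv : c⁻¹ = c := hinvA c (hBA hc)
    let Mp : Subgroup (MulAut V) :=
      { carrier := {m | m ∈ M ∧ c * m * c⁻¹ = m}
        one_mem' := ⟨M.one_mem, by simp⟩
        mul_mem' := by
          rintro m n ⟨hm, hm'⟩ ⟨hn, hn'⟩
          refine ⟨M.mul_mem hm hn, ?_⟩
          have e1 : c * (m * n) * c⁻¹ = (c * m * c⁻¹) * (c * n * c⁻¹) := by group
          rw [e1, hm', hn']
        inv_mem' := by
          rintro m ⟨hm, hm'⟩
          refine ⟨M.inv_mem hm, ?_⟩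
          have e1 : c * m⁻¹ * c⁻¹ = (c * m * c⁻¹)⁻¹ := by group
          rw [e1, hm'] }
    have hMpM : Mp ≤ M := fun m hm => hm.1
    by_cases hMp : Mp = ⊥
    · right
      intro m hm
      have hcm : c * m * c⁻¹ ∈ M := hMB c hc m hm
      have hmem : m * (c * m * c⁻¹) ∈ Mp := by
        refine ⟨M.mul_mem hm hcm, ?_⟩
        have e1 : c * (m * (c * m * c⁻¹)) * c⁻¹ = (c * m * c⁻¹) * ((c * c) * m * (c * c)⁻¹) := by
          group
        rw [e1, hcc]
        have e2 : c * m * c⁻¹ * (1 * m * 1⁻¹) = (c * m * c⁻¹) * m := by group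
        rw [e2]
        exact hKc _ (hMK hcm) _ (hMK hm)
      rw [hMp, Subgroup.mem_bot] at hmem
      exact (eq_inv_of_mul_eq_one_right hmem)
    · left
      have hMpfam : Mp ∈ {M : Subgroup (MulAut V) | M ≠ ⊥ ∧ M ≤ K ∧
          (∀ c ∈ B, ∀ m ∈ M, c * m * c⁻¹ ∈ M) ∧ ∀ m ∈ M, b * m * b⁻¹ = m⁻¹} := by
        refine ⟨hMp, hMpM.trans hMK, ?_, fun m hm => hMb m hm.1⟩
        rintro c' hc' m ⟨hm, hm'⟩
        refine ⟨hMB c' hc' m hm, ?_⟩
        have hcc' : c * c' = c' * c := hAc c (hBA hc) c' (hBA hc')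
        have e1 : c * (c' * m * c'⁻¹) * c⁻¹ = (c * c') * m * (c * c')⁻¹ := by group
        rw [e1, hcc']
        have e2 : c' * c * m * (c' * c)⁻¹ = c' * (c * m * c⁻¹) * c'⁻¹ := by group
        rw [e2, hm']
      have h1 := hMmin Mp hMpfam
      have h2 : Mp = M := Subgroup.eq_of_le_of_card_ge hMpM h1
      intro m hm
      have : m ∈ Mp := by rw [h2]; exact hm
      exact this.2
  -- the centralizer of `M` in `B`
  let B₀ : Subgroup (MulAut V) :=
    { carrier := {c | c ∈ B ∧ ∀ m ∈ M, c * m * c⁻¹ = m}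
      one_mem' := ⟨B.one_mem, fun m _ => by rw [one_mul, inv_one, mul_one]⟩
      mul_mem' := by
        rintro c d ⟨hc, hc'⟩ ⟨hd, hd'⟩
        refine ⟨B.mul_mem hc hd, fun m hm => ?_⟩
        have e1 : c * d * m * (c * d)⁻¹ = c * (d * m * d⁻¹) * c⁻¹ := by group
        rw [e1, hd' m hm, hc' m hm]
      inv_mem' := by
        rintro c ⟨hc, hc'⟩
        refine ⟨B.inv_mem hc, fun m hm => ?_⟩
        calc c⁻¹ * m * c⁻¹⁻¹ = c⁻¹ * (c * m * c⁻¹) * c⁻¹⁻¹ := by rw [hc' m hm]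
          _ = m := by group }
  have hB₀B : B₀ ≤ B := fun c hc => hc.1
  obtain ⟨⟨k, hkM⟩, hk1'⟩ := (Subgroup.ne_bot_iff_exists_ne_one).1 hMne
  have hk1 : k ≠ 1 := fun h => hk1' (Subtype.ext h)
  have hkK : k ∈ K := hMK hkM
  have hbk : b * k * b⁻¹ = k⁻¹ := hMb k hkM
  have hbB₀ : b ∉ B₀ := by
    intro h
    have h1 := h.2 k hkM
    rw [hbk] at h1
    apply hk1
    apply hKsq k hkK
    calc k * k = k⁻¹ * k := by rw [h1]
      _ = 1 := inv_mul_cancel k
  have hcover : ∀ c ∈ B, c ∈ B₀ ∨ b * c ∈ B₀ := by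
    intro c hc
    rcases hdich c hc with h | h
    · exact Or.inl ⟨hc, h⟩
    · right
      refine ⟨B.mul_mem hb hc, fun m hm => ?_⟩
      have e1 : b * c * m * (b * c)⁻¹ = b * (c * m * c⁻¹) * b⁻¹ := by group
      rw [e1, h m hm, hMb _ (M.inv_mem hm), inv_inv]
  have hcardB : Nat.card B ≤ 2 * Nat.card B₀ := by
    have hinj : Function.Injective (fun c : ↥B =>
        if h : (c : MulAut V) ∈ B₀ then ((⟨c, h⟩ : ↥B₀), true)
        else ((⟨b * c, (hcover c c.2).resolve_left h⟩ : ↥B₀), false)) := by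
      intro c d hcd
      by_cases h1 : (c : MulAut V) ∈ B₀
      · by_cases h2 : (d : MulAut V) ∈ B₀
        · simp only [h1, h2, dite_true, Prod.mk.injEq, Subtype.mk.injEq, and_true] at hcd
          exact Subtype.ext hcd
        · simp [h1, h2] at hcd
      · by_cases h2 : (d : MulAut V) ∈ B₀
        · simp [h1, h2] at hcd
        · simp only [h1, h2, dite_false, Prod.mk.injEq, Subtype.mk.injEq, and_true,
            mul_right_inj] at hcd
          exact Subtype.ext hcd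
    have h := Nat.card_le_card_of_injective _ hinj
    rw [Nat.card_prod, Nat.card_eq_fintype_card (α := Bool), Fintype.card_bool] at h
    omega
  -- `B₀` fixes `[V, k]`
  have hB₀k : ∀ b₀ ∈ B₀, ∀ v : V, b₀ (k v * v⁻¹) = k v * v⁻¹ := by
    intro b₀ hb₀
    have hb₀k : b₀ * k = k * b₀ := by
      have h1 := hb₀.2 k hkM
      have e1 : b₀ * k = (b₀ * k * b₀⁻¹) * b₀ := by group
      rw [e1, h1]
    let G₀ : Subgroup (MulAut V) :=
      { carrier := {x | ∀ v : V, b₀ (x v * v⁻¹) = x v * v⁻¹}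
        one_mem' := fun v => by simp
        mul_mem' := by
          intro x y hx hy v
          have e1 : (x * y) v * v⁻¹ = (x (y v) * (y v)⁻¹) * (y v * v⁻¹) := by
            rw [MulAut.mul_apply]; group
          rw [e1, map_mul, hx (y v), hy v]
        inv_mem' := by
          intro x hx v
          have e1 : x⁻¹ v * v⁻¹ = (x (x⁻¹ v) * (x⁻¹ v)⁻¹)⁻¹ := by
            rw [MulAut.apply_inv_self]; group
          rw [e1, map_inv, hx (x⁻¹ v)] }
    have hbG : b ∈ G₀ := fun v => hquad b₀ (hBA (hB₀B hb₀)) b hbA v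
    have hkbG : k * b * k⁻¹ ∈ G₀ := by
      intro v
      have e1 : (k * b * k⁻¹) v * v⁻¹ = k (b (k⁻¹ v) * (k⁻¹ v)⁻¹) := by
        rw [map_mul, map_inv, MulAut.apply_inv_self]
        rfl
      rw [e1]
      have e2 : b₀ (k (b (k⁻¹ v) * (k⁻¹ v)⁻¹)) = (b₀ * k) (b (k⁻¹ v) * (k⁻¹ v)⁻¹) := rfl
      rw [e2, hb₀k]
      show k (b₀ (b (k⁻¹ v) * (k⁻¹ v)⁻¹)) = _
      rw [hquad b₀ (hBA (hB₀B hb₀)) b hbA (k⁻¹ v)]
    have hkkG : k * k ∈ G₀ := by
      have e1 : k * k = (k * b * k⁻¹) * b⁻¹ := by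
        have : b * k⁻¹ * b⁻¹ = k := by
          have e3 : b * k⁻¹ * b⁻¹ = (b * k * b⁻¹)⁻¹ := by group
          rw [e3, hbk, inv_inv]
        calc k * k = k * (b * k⁻¹ * b⁻¹) := by rw [this]
          _ = (k * b * k⁻¹) * b⁻¹ := by group
      rw [e1]
      exact G₀.mul_mem hkbG (G₀.inv_mem hbG)
    obtain ⟨j, hj⟩ := hKroot k hkK
    have hkG : k ∈ G₀ := by
      rw [← hj]; exact G₀.pow_mem hkkG j
    exact hkG
  -- `b` does not fix `[V, k]`
  obtain ⟨v₀, hv₀⟩ : ∃ v₀ : V, b (k v₀ * v₀⁻¹) ≠ k v₀ * v₀⁻¹ := by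
    by_contra hcon
    push Not at hcon
    apply hk1
    have hfix1 : ∀ f : V, b f = f → b (k f) = k f := by
      intro f hf
      have e1 : k f = (k f * f⁻¹) * f := by group
      rw [e1, map_mul, hcon f, hf]
    have hkinv : ∀ f : V, b f = f → k⁻¹ f = k f := by
      intro f hf
      have e1 : k⁻¹ = b * k * b⁻¹ := hbk.symm
      rw [e1, hbinv]
      show b (k (b f)) = k f
      rw [hf, hfix1 f hf]
    have hkk : ∀ f : V, b f = f → (k * k) f = f := by
      intro f hf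
      show k (k f) = f
      rw [← hkinv f hf, MulAut.apply_inv_self]
    obtain ⟨j, hj⟩ := hKroot k hkK
    have hkf : ∀ f : V, b f = f → k f = f := by
      intro f hf
      have h1 : ∀ i : ℕ, ((k * k) ^ i) f = f := by
        intro i
        induction i with
        | zero => simp
        | succ i ih =>
          rw [pow_succ, MulAut.mul_apply, hkk f hf, ih]
      rw [← hj]; exact h1 j
    have hkk1 : k * k = 1 := by
      ext v
      show k (k v) = v
      have h1 : k v = (k v * v⁻¹) * v := by group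
      have h2 : k (k v * v⁻¹) = k v * v⁻¹ := hkf _ (hcon v)
      rw [h1, map_mul, h2]
      have e3 : k v * v⁻¹ * k v = (k v * k v) * v⁻¹ := by
        rw [mul_assoc, hcomm v⁻¹ (k v), ← mul_assoc]
      rw [e3, hexp, one_mul]
      exact inv_eq_of_mul_eq_one_left (hexp v)
    exact hKsq k hkK hkk1
  -- the offender inequality for `B₀`
  have hfixlt : 2 * Nat.card (fixSub B) ≤ Nat.card (fixSub B₀) := by
    have hle : fixSub B ≤ fixSub B₀ := fixSub_mono hB₀B
    have hmem : k v₀ * v₀⁻¹ ∈ fixSub B₀ := fun c hc => hB₀k c hc v₀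
    have hnmem : k v₀ * v₀⁻¹ ∉ fixSub B := fun h => hv₀ (h b hb)
    have hdvd := Subgroup.card_dvd_of_le hle
    obtain ⟨q, hq⟩ := hdvd
    have hpos : 0 < Nat.card (fixSub B) := Nat.card_pos
    have hq1 : q ≠ 1 := by
      intro h
      rw [h, mul_one] at hq
      have := Subgroup.eq_of_le_of_card_ge hle (le_of_eq hq)
      rw [this] at hnmem
      exact hnmem hmem
    have hq0 : q ≠ 0 := by
      intro h
      rw [h, mul_zero] at hq
      have : 0 < Nat.card (fixSub B₀) := Nat.card_pos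
      omega
    rw [hq]
    have : 2 ≤ q := by omega
    nlinarith
  have hoff₀ : Nat.card V ≤ Nat.card B₀ * Nat.card (fixSub B₀) := by
    calc Nat.card V ≤ Nat.card B * Nat.card (fixSub B) := hBoff
      _ ≤ (2 * Nat.card B₀) * Nat.card (fixSub B) := Nat.mul_le_mul_right _ hcardB
      _ = Nat.card B₀ * (2 * Nat.card (fixSub B)) := by ring
      _ ≤ Nat.card B₀ * Nat.card (fixSub B₀) := Nat.mul_le_mul_left _ hfixlt
  have hB₀bot : B₀ = ⊥ := by
    by_contra hne
    have h1 := hmin B₀ ⟨hB₀B.trans hBA, hne, hoff₀⟩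
    have h2 : B = B₀ := (Subgroup.eq_of_le_of_card_ge hB₀B h1).symm
    rw [h2] at hb
    exact hbB₀ hb
  -- conclusion
  refine ⟨b, hbA, hb1, ?_⟩
  have hcardB2 : Nat.card B ≤ 2 := by
    rw [hB₀bot, Subgroup.card_bot] at hcardB
    exact hcardB
  have hidx : (fixSub B).index ≤ 2 := by
    have h1 := Subgroup.card_mul_index (fixSub B)
    have hpos : 0 < Nat.card (fixSub B) := Nat.card_pos
    have h2 : Nat.card V ≤ 2 * Nat.card (fixSub B) :=
      hBoff.trans (Nat.mul_le_mul_right _ hcardB2)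
    rw [← h1] at h2
    by_contra hcon
    push Not at hcon
    nlinarith
  obtain ⟨v₁, hv₁⟩ : ∃ v₁ : V, b v₁ ≠ v₁ := by
    by_contra hcon
    push Not at hcon
    apply hb1
    ext v
    exact hcon v
  have hv₁F : v₁ ∉ fixSub B := fun h => hv₁ (h b hb)
  have hidx2 : (fixSub B).index = 2 := by
    have h0 : (fixSub B).index ≠ 0 := Subgroup.index_ne_zero_of_finite
    have h1 : (fixSub B).index ≠ 1 := by
      intro h
      rw [Subgroup.index_eq_one] at h
      rw [h] at hv₁F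
      exact hv₁F (Subgroup.mem_top _)
    omega
  refine ⟨b v₁ * v₁⁻¹, fun v => ?_⟩
  by_cases hvF : v ∈ fixSub B
  · exact Or.inl (hvF b hb)
  · right
    have h1 : v * v₁⁻¹ ∈ fixSub B := by
      rw [Subgroup.mul_mem_iff_of_index_two hidx2]
      constructor
      · intro h; exact absurd h hvF
      · intro h; exact absurd ((fixSub B).inv_mem_iff.1 h) hv₁F
    have h2 := h1 b hb
    rw [map_mul, map_inv] at h2
    have e1 : b v = (b v * (b v₁)⁻¹) * b v₁ := by group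
    rw [e1, h2]
    have e2 : v * v₁⁻¹ * b v₁ = v * (v₁⁻¹ * b v₁) := by group
    rw [e2, hcomm v₁⁻¹ (b v₁)]

end Offender

end Cfsg.Agent.Helper23
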