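import Mathlib

set_option autoImplicit false

namespace Cfsg.Agent.Helper23.Psl3x

open Polynomial

theorem pow_of_dvd {F : Type*} [Field F] (M : Matrix (Fin 3) (Fin 3) F) (e : ℕ) (c : F)
    (h : M.charpoly ∣ (X ^ e - C c : F[X])) : M ^ e = c • (1 : Matrix (Fin 3) (Fin 3) F) := by
  obtain ⟨g, hg⟩ := h
  have h0 : aeval M (X ^ e - C c : F[X]) = 0 := by
    rw [hg, map_mul, Matrix.aeval_self_charpoly, zero_mul]
  rw [map_sub, map_pow, aeval_X, aeval_C] at h0
  rw [Algebra.algebraMap_eq_smul_one] at h0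
  exact sub_eq_zero.mp h0

theorem lin_dvd {F : Type*} [Field F] (a c : F) (e : ℕ) (h : a ^ e = c) :
    (X - C a : F[X]) ∣ X ^ e - C c := by
  rw [Polynomial.dvd_iff_isRoot]
  simp [Polynomial.IsRoot, h]

theorem arith (n p : ℕ) : ∃ k j : ℕ, p * n / Nat.gcd 3 n = p * k ∧ 3 * (p * k) = n * j := by
  obtain ⟨k, hk⟩ := Nat.gcd_dvd_right 3 n
  obtain ⟨j, hj⟩ := Nat.gcd_dvd_left 3 n
  have hpos : 0 < Nat.gcd 3 n := Nat.gcd_pos_of_pos_left _ (by norm_num)
  refine ⟨k, j * p, ?_, ?_⟩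
  · generalize Nat.gcd 3 n = d at hk hj hpos ⊢
    subst hk
    rw [Nat.mul_left_comm, Nat.mul_div_cancel_left _ hpos]
  · generalize Nat.gcd 3 n = d at hk hj hpos ⊢
    subst hk
    calc 3 * (p * k) = d * j * (p * k) := by rw [← hj]
      _ = d * k * (j * p) := by ring

theorem pth_dvd {F : Type*} [Field F] (p : ℕ) [Fact p.Prime] [CharP F p] (a : F) (k : ℕ) :
    (X - C a : F[X]) ^ p ∣ X ^ (p * k) - C (a ^ (p * k)) := by
  have hpk : (X ^ (p * k) - C (a ^ (p * k)) : F[X]) = (X ^ k - C (a ^ k)) ^ p := by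
    rw [sub_pow_char, ← pow_mul, ← C_pow, ← pow_mul, mul_comm k p]
  rw [hpk]
  exact pow_dvd_pow_of_dvd (lin_dvd a _ k rfl) p

theorem two_eq {F : Type*} [Field F] [Fintype F] (p : ℕ) [Fact p.Prime] [CharP F p]
    (M : Matrix (Fin 3) (Fin 3) F) (a b : F) (hab : a ≠ b) (ha : a ≠ 0) (h : a * a * b = 1)
    (hchar : M.charpoly = (X - C a) ^ 2 * (X - C b)) :
    ∃ c : F, M ^ (p * (Fintype.card F - 1) / Nat.gcd 3 (Fintype.card F - 1)) =
      c • (1 : Matrix (Fin 3) (Fin 3) F) := by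
  obtain ⟨k, j, he, h3e⟩ := arith (Fintype.card F - 1) p
  rw [he]
  refine ⟨a ^ (p * k), pow_of_dvd M _ _ ?_⟩
  rw [hchar]
  have d1 : (X - C a : F[X]) ^ 2 ∣ X ^ (p * k) - C (a ^ (p * k)) :=
    dvd_trans (pow_dvd_pow _ (Fact.out : p.Prime).two_le) (pth_dvd p a k)
  have hb : b ^ (p * k) = a ^ (p * k) := by
    have h1 : a ^ (Fintype.card F - 1) = 1 := FiniteField.pow_card_sub_one_eq_one a ha
    have h3 : a ^ (p * k) * a ^ (p * k) * a ^ (p * k) = 1 := by
      rw [← pow_add, ← pow_add]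
      have e3 : p * k + p * k + p * k = 3 * (p * k) := by ring
      rw [e3, h3e, pow_mul, h1, one_pow]
    have h2 : a ^ (p * k) * a ^ (p * k) * b ^ (p * k) = 1 := by
      rw [← mul_pow, ← mul_pow, h, one_pow]
    have hne : a ^ (p * k) * a ^ (p * k) ≠ 0 := mul_ne_zero (pow_ne_zero _ ha) (pow_ne_zero _ ha)
    exact mul_left_cancel₀ hne (h2.trans h3.symm)
  have d2 : (X - C b : F[X]) ∣ X ^ (p * k) - C (a ^ (p * k)) := lin_dvd b _ _ hb
  have cop : IsCoprime ((X - C a : F[X]) ^ 2) (X - C b) :=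
    (Polynomial.isCoprime_X_sub_C_of_isUnit_sub (sub_ne_zero.mpr hab).isUnit).pow_left
  exact cop.mul_dvd d1 d2

theorem case_split {F : Type*} [Field F] [Fintype F] (p : ℕ) [Fact p.Prime] [CharP F p] (M : Matrix (Fin 3) (Fin 3) F) (hdet : M.det = 1) (lam mu nu : F) (hchar : M.charpoly = (Polynomial.X - Polynomial.C lam) * ((Polynomial.X - Polynomial.C mu) * (Polynomial.X - Polynomial.C nu))) : (∃ c : F, M ^ (Fintype.card F - 1) = c • (1 : Matrix (Fin 3) (Fin 3) F)) ∨ (∃ c : F, M ^ (p * (Fintype.card F - 1) / Nat.gcd 3 (Fintype.card F - 1)) = c • (1 : Matrix (Fin 3) (Fin 3) F)) ∨ (p = 2 ∧ ∃ c : F, M ^ 4 = c • (1 : Matrix (Fin 3) (Fin 3) F)) := by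
  have hprod : lam * mu * nu = 1 := by
    have h1 := Matrix.det_eq_sign_charpoly_coeff M
    have h2 : (M.charpoly).coeff 0 = -(lam * mu * nu) := by
      rw [hchar, Polynomial.coeff_zero_eq_eval_zero]
      simp only [eval_mul, eval_sub, eval_X, eval_C]
      ring
    rw [h2, hdet] at h1
    simp only [Fintype.card_fin] at h1
    linear_combination -h1
  have hl0 : lam ≠ 0 := by rintro rfl; simp at hprod
  have hm0 : mu ≠ 0 := by rintro rfl; simp at hprod
  have hn0 : nu ≠ 0 := by rintro rfl; simp at hprod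
  by_cases h12 : lam = mu
  · by_cases h13 : lam = nu
    · subst h12; subst h13
      have hchar3 : M.charpoly = (X - C lam) ^ 3 := by rw [hchar]; ring
      by_cases hp2 : p = 2
      · subst hp2
        right; right
        refine ⟨rfl, lam ^ 4, pow_of_dvd M _ _ ?_⟩
        rw [hchar3]
        have e1 : (X - C lam : F[X]) ^ 2 = X ^ 2 - C lam ^ 2 := by rw [sub_pow_char]
        have h4 : (X - C lam : F[X]) ^ 4 = X ^ 4 - C (lam ^ 4) := by
          calc (X - C lam : F[X]) ^ 4 = ((X - C lam) ^ 2) ^ 2 := by ring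
            _ = (X ^ 2 - C lam ^ 2) ^ 2 := by rw [e1]
            _ = (X ^ 2) ^ 2 - (C lam ^ 2) ^ 2 := by rw [sub_pow_char]
            _ = X ^ 4 - C (lam ^ 4) := by rw [C_pow]; ring
        rw [← h4]
        exact pow_dvd_pow _ (by norm_num)
      · right; left
        obtain ⟨k, j, he, h3e⟩ := arith (Fintype.card F - 1) p
        rw [he]
        refine ⟨lam ^ (p * k), pow_of_dvd M _ _ ?_⟩
        rw [hchar3]
        have hp3 : 3 ≤ p := by
          have := (Fact.out : p.Prime).two_le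
          omega
        exact dvd_trans (pow_dvd_pow _ hp3) (pth_dvd p lam k)
    · subst h12
      right; left
      exact two_eq p M lam nu h13 hl0 hprod (by rw [hchar]; ring)
  · by_cases h13 : lam = nu
    · subst h13
      right; left
      exact two_eq p M lam mu h12 hl0 (by rw [← hprod]; ring) (by rw [hchar]; ring)
    · by_cases h23 : mu = nu
      · subst h23
        right; left
        exact two_eq p M mu lam (Ne.symm h12) hm0 (by rw [← hprod]; ring) (by rw [hchar]; ring)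
      · left
        refine ⟨1, pow_of_dvd M _ _ ?_⟩
        rw [hchar]
        have d1 := lin_dvd lam 1 (Fintype.card F - 1) (FiniteField.pow_card_sub_one_eq_one lam hl0)
        have d2 := lin_dvd mu 1 (Fintype.card F - 1) (FiniteField.pow_card_sub_one_eq_one mu hm0)
        have d3 := lin_dvd nu 1 (Fintype.card F - 1) (FiniteField.pow_card_sub_one_eq_one nu hn0)
        have c12 : IsCoprime (X - C lam : F[X]) (X - C mu) :=
          Polynomial.isCoprime_X_sub_C_of_isUnit_sub (sub_ne_zero.mpr h12).isUnit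
        have c13 : IsCoprime (X - C lam : F[X]) (X - C nu) :=
          Polynomial.isCoprime_X_sub_C_of_isUnit_sub (sub_ne_zero.mpr h13).isUnit
        have c23 : IsCoprime (X - C mu : F[X]) (X - C nu) :=
          Polynomial.isCoprime_X_sub_C_of_isUnit_sub (sub_ne_zero.mpr h23).isUnit
        exact (c12.mul_right c13).mul_dvd d1 (c23.mul_dvd d2 d3)

end Cfsg.Agent.Helper23.Psl3x
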