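import Mathlib
import Cfsg.Agent.Helper23.Psl3x

set_option autoImplicit false

namespace Cfsg.Agent.Helper23.Psu3x

open Polynomial Matrix
open Cfsg.Agent.Helper23.Psl3x

theorem q_pow {F : Type*} [Field F] [Fintype F] (p : ℕ) [Fact p.Prime] [CharP F p] (q : ℕ)
    (hF : Fintype.card F = q ^ 2) : ∃ m : ℕ, q = p ^ m := by
  obtain ⟨n, -, hn⟩ := FiniteField.card F p
  have h1 : q ∣ p ^ (n : ℕ) := by
    rw [← hn, hF]; exact dvd_pow_self q (by norm_num)
  obtain ⟨m, -, hm⟩ := (Nat.dvd_prime_pow (Fact.out : p.Prime)).mp h1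
  exact ⟨m, hm⟩

theorem root_closed_F {F : Type*} [Field F] [Fintype F] (p : ℕ) [Fact p.Prime] [CharP F p] (q : ℕ)
    (hF : Fintype.card F = q ^ 2) (M : Matrix (Fin 3) (Fin 3) F)
    (hU : Mᵀ * M.map (fun x => x ^ q) = 1) (r : F) (hr : M.charpoly.eval r = 0) :
    M.charpoly.eval ((r ^ q)⁻¹) = 0 := by
  obtain ⟨m, rfl⟩ := q_pow p q hF
  have hφ : ∀ x : F, iterateFrobenius F p m x = x ^ p ^ m := fun x => rfl
  have hmap : M.map (fun x => x ^ p ^ m) = (iterateFrobenius F p m).mapMatrix M := by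
    ext i j
    simp [hφ]
  rw [hmap] at hU
  rw [Matrix.eval_charpoly] at hr ⊢
  have h2 : (Matrix.scalar (Fin 3) (r ^ p ^ m) - (iterateFrobenius F p m).mapMatrix M).det = 0 := by
    have h := congrArg (iterateFrobenius F p m) hr
    rw [RingHom.map_det, map_zero] at h
    rw [← h]
    congr 1
    ext i j
    by_cases hij : i = j
    · subst hij
      simp [Matrix.scalar_apply, hφ]
      exact (map_sub (iterateFrobenius F p m) r (M i i)).symm
    · simp [Matrix.scalar_apply, hφ, hij]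
      exact (map_neg (iterateFrobenius F p m) (M i j)).symm
  have h3 : ((r ^ p ^ m) • Mᵀ - 1 : Matrix (Fin 3) (Fin 3) F).det = 0 := by
    have e : ((r ^ p ^ m) • Mᵀ - 1 : Matrix (Fin 3) (Fin 3) F) =
        Mᵀ * (Matrix.scalar (Fin 3) (r ^ p ^ m) - (iterateFrobenius F p m).mapMatrix M) := by
      rw [Matrix.mul_sub, hU]
      congr 1
      ext i j
      simp [Matrix.scalar_apply, Matrix.mul_diagonal, mul_comm]
    rw [e, Matrix.det_mul, h2, mul_zero]
  have hs0 : r ^ p ^ m ≠ 0 := by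
    intro hs
    rw [hs, zero_smul, zero_sub, Matrix.det_neg, Matrix.det_one] at h3
    simp at h3
  have e2 : ((r ^ p ^ m) • Mᵀ - 1 : Matrix (Fin 3) (Fin 3) F) =
      (-(r ^ p ^ m)) • (Matrix.scalar (Fin 3) (r ^ p ^ m)⁻¹ - M)ᵀ := by
    ext i j
    by_cases hij : i = j
    · subst hij
      simp [Matrix.scalar_apply]
      field_simp
      ring
    · have hji : ¬ j = i := fun h => hij h.symm
      simp [Matrix.scalar_apply, hij]
  rw [e2, Matrix.det_smul, Matrix.det_transpose] at h3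
  rcases mul_eq_zero.mp h3 with h | h
  · exact absurd (pow_eq_zero_iff (by simp) |>.mp h) (neg_ne_zero.mpr hs0)
  · exact h

theorem two_eq_gen {F : Type*} [Field F] (p : ℕ) [Fact p.Prime] [CharP F p] (n : ℕ)
    (M : Matrix (Fin 3) (Fin 3) F) (a b : F) (hab : a ≠ b) (ha : a ≠ 0) (h1 : a ^ n = 1)
    (h : a * a * b = 1) (hchar : M.charpoly = (X - C a) ^ 2 * (X - C b)) :
    ∃ c : F, M ^ (p * n / Nat.gcd 3 n) = c • (1 : Matrix (Fin 3) (Fin 3) F) := by
  obtain ⟨k, j, he, h3e⟩ := arith n p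
  rw [he]
  refine ⟨a ^ (p * k), pow_of_dvd M _ _ ?_⟩
  rw [hchar]
  have d1 : (X - C a : F[X]) ^ 2 ∣ X ^ (p * k) - C (a ^ (p * k)) :=
    dvd_trans (pow_dvd_pow _ (Fact.out : p.Prime).two_le) (pth_dvd p a k)
  have hb : b ^ (p * k) = a ^ (p * k) := by
    have h3 : a ^ (p * k) * a ^ (p * k) * a ^ (p * k) = 1 := by
      rw [← pow_add, ← pow_add]
      have e3 : p * k + p * k + p * k = 3 * (p * k) := by ring
      rw [e3, h3e, pow_mul, h1, one_pow]
    have h2 : a ^ (p * k) * a ^ (p * k) * b ^ (p * k) = 1 := by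
      rw [← mul_pow, ← mul_pow, h, one_pow]
    have hne : a ^ (p * k) * a ^ (p * k) ≠ 0 := mul_ne_zero (pow_ne_zero _ ha) (pow_ne_zero _ ha)
    exact mul_left_cancel₀ hne (h2.trans h3.symm)
  have d2 : (X - C b : F[X]) ∣ X ^ (p * k) - C (a ^ (p * k)) := lin_dvd b _ _ hb
  have cop : IsCoprime ((X - C a : F[X]) ^ 2) (X - C b) :=
    (Polynomial.isCoprime_X_sub_C_of_isUnit_sub (sub_ne_zero.mpr hab).isUnit).pow_left
  exact cop.mul_dvd d1 d2

theorem three_eq_gen {F : Type*} [Field F] (p : ℕ) [Fact p.Prime] [CharP F p] (hp : p ≠ 2) (n : ℕ)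
    (M : Matrix (Fin 3) (Fin 3) F) (a : F) (hchar : M.charpoly = (X - C a) ^ 3) :
    ∃ c : F, M ^ (p * n / Nat.gcd 3 n) = c • (1 : Matrix (Fin 3) (Fin 3) F) := by
  obtain ⟨k, j, he, h3e⟩ := arith n p
  rw [he]
  refine ⟨a ^ (p * k), pow_of_dvd M _ _ ?_⟩
  rw [hchar]
  have hp3 : 3 ≤ p := by
    have := (Fact.out : p.Prime).two_le
    omega
  exact dvd_trans (pow_dvd_pow _ hp3) (pth_dvd p a k)

/-- arithmetic for the exponent `e = (q^2-1)/gcd(3,q+1)` -/
theorem arith2 (q : ℕ) (hq : 1 ≤ q) : ∃ k j : ℕ,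
    (q + 1) * ((q ^ 2 - 1) / Nat.gcd 3 (q + 1)) = k * (q ^ 2 - 1) ∧
    3 * ((q ^ 2 - 1) / Nat.gcd 3 (q + 1)) = j * (q ^ 2 - 1) := by
  obtain ⟨k, hk⟩ := Nat.gcd_dvd_right 3 (q + 1)
  obtain ⟨j, hj⟩ := Nat.gcd_dvd_left 3 (q + 1)
  have hpos : 0 < Nat.gcd 3 (q + 1) := Nat.gcd_pos_of_pos_left _ (by norm_num)
  have hq2 : q ^ 2 - 1 = (q + 1) * (q - 1) := by
    obtain ⟨t, rfl⟩ : ∃ t, q = t + 1 := ⟨q - 1, by omega⟩
    have : (t + 1) ^ 2 = (t + 1 + 1) * t + 1 := by ring
    rw [this]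
    simp
  refine ⟨k, j, ?_, ?_⟩
  · generalize Nat.gcd 3 (q + 1) = d at hk hj hpos ⊢
    have e1 : q ^ 2 - 1 = d * (k * (q - 1)) := by rw [hq2, hk]; ring
    rw [e1, Nat.mul_div_cancel_left _ hpos, hk]
    ring
  · generalize Nat.gcd 3 (q + 1) = d at hk hj hpos ⊢
    have e1 : q ^ 2 - 1 = d * (k * (q - 1)) := by rw [hq2, hk]; ring
    rw [e1, Nat.mul_div_cancel_left _ hpos]
    calc 3 * (k * (q - 1)) = d * j * (k * (q - 1)) := by rw [← hj]
      _ = j * (d * (k * (q - 1))) := by ring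

theorem nonunit_core {F : Type*} [Field F] [Fintype F] (q : ℕ)
    (hF : Fintype.card F = q ^ 2) (M : Matrix (Fin 3) (Fin 3) F) (a b c : F)
    (habc : a * b * c = 1) (ha1 : a ^ (q + 1) ≠ 1) (hb : b = (a ^ q)⁻¹)
    (hchar : M.charpoly = (X - C a) * ((X - C b) * (X - C c))) :
    ∃ c' : F, M ^ ((q ^ 2 - 1) / Nat.gcd 3 (q + 1)) = c' • (1 : Matrix (Fin 3) (Fin 3) F) := by
  have ha0 : a ≠ 0 := by rintro rfl; simp at habc
  have hq1 : 1 ≤ q := by
    rcases Nat.eq_zero_or_pos q with h | h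
    · subst h
      have := Fintype.one_lt_card (α := F)
      rw [hF] at this
      simp at this
    · exact h
  have hcard : a ^ (q ^ 2 - 1) = 1 := by
    have := FiniteField.pow_card_sub_one_eq_one a ha0
    rw [hF] at this
    exact this
  obtain ⟨k, j, hk, hj⟩ := arith2 q hq1
  set e := (q ^ 2 - 1) / Nat.gcd 3 (q + 1) with he
  have hqe : a ^ ((q + 1) * e) = 1 := by rw [hk, mul_comm, pow_mul, hcard, one_pow]
  have h3e : a ^ (3 * e) = 1 := by rw [hj, mul_comm, pow_mul, hcard, one_pow]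
  have haq0 : a ^ q ≠ 0 := pow_ne_zero _ ha0
  -- b^e = a^e
  have hbe : b ^ e = a ^ e := by
    have h1 : a ^ e * (a ^ q) ^ e = 1 := by
      rw [← pow_mul, ← pow_add]
      have : e + q * e = (q + 1) * e := by ring
      rw [this, hqe]
    rw [hb, inv_pow]
    exact (eq_inv_of_mul_eq_one_left h1).symm
  have hae0 : a ^ e ≠ 0 := pow_ne_zero _ ha0
  have hce : c ^ e = a ^ e := by
    have h1 : a ^ e * a ^ e * c ^ e = 1 := by
      have h0 : a ^ e * b ^ e * c ^ e = 1 := by rw [← mul_pow, ← mul_pow, habc, one_pow]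
      rw [hbe] at h0
      exact h0
    have h2 : a ^ e * a ^ e * a ^ e = 1 := by
      rw [← pow_add, ← pow_add]
      have : e + e + e = 3 * e := by ring
      rw [this, h3e]
    exact mul_left_cancel₀ (mul_ne_zero hae0 hae0) (h1.trans h2.symm)
  -- a^(q*(q+1)) = a^(q+1)
  have hqq : (a ^ q) ^ (q + 1) = a ^ (q + 1) := by
    rw [← pow_mul]
    have : q * (q + 1) = (q ^ 2 - 1) + (q + 1) := by
      have h1 : 1 ≤ q ^ 2 := Nat.one_le_pow _ _ hq1
      have h2 : q * (q + 1) = q ^ 2 + q := by ring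
      omega
    rw [this, pow_add, hcard, one_mul]
  have hb1 : b ^ (q + 1) ≠ 1 := by
    rw [hb, inv_pow, hqq]
    intro h
    exact ha1 (inv_eq_one.mp h)
  have hc1 : c ^ (q + 1) = 1 := by
    have h1 : a ^ (q + 1) * b ^ (q + 1) * c ^ (q + 1) = 1 := by
      rw [← mul_pow, ← mul_pow, habc, one_pow]
    have h2 : a ^ (q + 1) * b ^ (q + 1) = 1 := by
      rw [hb, inv_pow, hqq]
      exact mul_inv_cancel₀ (pow_ne_zero _ ha0)
    rw [h2, one_mul] at h1
    exact h1
  have hab : a ≠ b := by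
    intro h
    apply ha1
    have h1 : a * a ^ q = 1 := by
      nth_rewrite 1 [h]
      rw [hb]
      exact inv_mul_cancel₀ haq0
    rw [pow_succ, mul_comm]
    exact h1
  have hac : a ≠ c := by
    intro h
    rw [h] at ha1
    exact ha1 hc1
  have hbc : b ≠ c := by
    intro h
    rw [h] at hb1
    exact hb1 hc1
  refine ⟨a ^ e, pow_of_dvd M _ _ ?_⟩
  rw [hchar]
  have d1 := lin_dvd a (a ^ e) e rfl
  have d2 := lin_dvd b (a ^ e) e hbe
  have d3 := lin_dvd c (a ^ e) e hce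
  have c12 : IsCoprime (X - C a : F[X]) (X - C b) :=
    Polynomial.isCoprime_X_sub_C_of_isUnit_sub (sub_ne_zero.mpr hab).isUnit
  have c13 : IsCoprime (X - C a : F[X]) (X - C c) :=
    Polynomial.isCoprime_X_sub_C_of_isUnit_sub (sub_ne_zero.mpr hac).isUnit
  have c23 : IsCoprime (X - C b : F[X]) (X - C c) :=
    Polynomial.isCoprime_X_sub_C_of_isUnit_sub (sub_ne_zero.mpr hbc).isUnit
  exact (c12.mul_right c13).mul_dvd d1 (c23.mul_dvd d2 d3)

theorem nonunit_any {F : Type*} [Field F] [Fintype F] (q : ℕ)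
    (hF : Fintype.card F = q ^ 2) (M : Matrix (Fin 3) (Fin 3) F) (a b c : F)
    (habc : a * b * c = 1) (ha1 : a ^ (q + 1) ≠ 1)
    (hroot : M.charpoly.eval ((a ^ q)⁻¹) = 0)
    (hchar : M.charpoly = (X - C a) * ((X - C b) * (X - C c))) :
    ∃ c' : F, M ^ ((q ^ 2 - 1) / Nat.gcd 3 (q + 1)) = c' • (1 : Matrix (Fin 3) (Fin 3) F) := by
  have ha0 : a ≠ 0 := by rintro rfl; simp at habc
  rw [hchar] at hroot
  simp only [eval_mul, eval_sub, eval_X, eval_C] at hroot
  rcases mul_eq_zero.mp hroot with h | h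
  · exfalso
    apply ha1
    have h1 : (a ^ q)⁻¹ = a := sub_eq_zero.mp h
    have h2 : a * a ^ q = 1 := by
      nth_rewrite 1 [← h1]
      exact inv_mul_cancel₀ (pow_ne_zero _ ha0)
    rw [pow_succ, mul_comm]
    exact h2
  · rcases mul_eq_zero.mp h with h | h
    · exact nonunit_core q hF M a b c habc ha1 (sub_eq_zero.mp h).symm hchar
    · exact nonunit_core q hF M a c b (by rw [← habc]; ring) ha1 (sub_eq_zero.mp h).symm
        (by rw [hchar]; ring)

theorem case_split {F : Type*} [Field F] [Fintype F] (p : ℕ) [Fact p.Prime] [CharP F p] (q : ℕ) (hF : Fintype.card F = q ^ 2) (hp : p ≠ 2) (M : Matrix (Fin 3) (Fin 3) F) (hdet : M.det = 1) (hU : Mᵀ * M.map (fun x => x ^ q) = 1) (lam mu nu : F) (hchar : M.charpoly = (Polynomial.X - Polynomial.C lam) * ((Polynomial.X - Polynomial.C mu) * (Polynomial.X - Polynomial.C nu))) : (∃ c : F, M ^ (q + 1) = c • (1 : Matrix (Fin 3) (Fin 3) F)) ∨ (∃ c : F, M ^ (p * (q + 1) / Nat.gcd 3 (q + 1)) = c • (1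 : Matrix (Fin 3) (Fin 3) F)) ∨ (∃ c : F, M ^ ((q ^ 2 - 1) / Nat.gcd 3 (q + 1)) = c • (1 : Matrix (Fin 3) (Fin 3) F)) := by
  have hprod : lam * mu * nu = 1 := by
    have h1 := Matrix.det_eq_sign_charpoly_coeff M
    have h2 : (M.charpoly).coeff 0 = -(lam * mu * nu) := by
      rw [hchar, Polynomial.coeff_zero_eq_eval_zero]
      simp only [eval_mul, eval_sub, eval_X, eval_C]
      ring
    rw [h2, hdet] at h1
    simp only [Fintype.card_fin] at h1
    linear_combination -h1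
  have hl0 : lam ≠ 0 := by rintro rfl; simp at hprod
  have hm0 : mu ≠ 0 := by rintro rfl; simp at hprod
  have hn0 : nu ≠ 0 := by rintro rfl; simp at hprod
  have hrl : M.charpoly.eval lam = 0 := by
    rw [hchar]; simp
  have hrm : M.charpoly.eval mu = 0 := by
    rw [hchar]; simp
  have hrn : M.charpoly.eval nu = 0 := by
    rw [hchar]; simp
  by_cases g1 : lam ^ (q + 1) = 1
  swap
  · right; right
    exact nonunit_any q hF M lam mu nu hprod g1 (root_closed_F p q hF M hU lam hrl) hchar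
  by_cases g2 : mu ^ (q + 1) = 1
  swap
  · right; right
    exact nonunit_any q hF M mu lam nu (by rw [← hprod]; ring) g2
      (root_closed_F p q hF M hU mu hrm) (by rw [hchar]; ring)
  by_cases g3 : nu ^ (q + 1) = 1
  swap
  · right; right
    exact nonunit_any q hF M nu lam mu (by rw [← hprod]; ring) g3
      (root_closed_F p q hF M hU nu hrn) (by rw [hchar]; ring)
  by_cases h12 : lam = mu
  · by_cases h13 : lam = nu
    · subst h12; subst h13
      right; left
      exact three_eq_gen p hp (q + 1) M lam (by rw [hchar]; ring)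
    · subst h12
      right; left
      exact two_eq_gen p (q + 1) M lam nu h13 hl0 g1 hprod (by rw [hchar]; ring)
  · by_cases h13 : lam = nu
    · subst h13
      right; left
      exact two_eq_gen p (q + 1) M lam mu h12 hl0 g1 (by rw [← hprod]; ring) (by rw [hchar]; ring)
    · by_cases h23 : mu = nu
      · subst h23
        right; left
        exact two_eq_gen p (q + 1) M mu lam (Ne.symm h12) hm0 g2 (by rw [← hprod]; ring)
          (by rw [hchar]; ring)
      · left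
        refine ⟨1, pow_of_dvd M _ _ ?_⟩
        rw [hchar]
        have d1 := lin_dvd lam 1 (q + 1) g1
        have d2 := lin_dvd mu 1 (q + 1) g2
        have d3 := lin_dvd nu 1 (q + 1) g3
        have c12 : IsCoprime (X - C lam : F[X]) (X - C mu) :=
          Polynomial.isCoprime_X_sub_C_of_isUnit_sub (sub_ne_zero.mpr h12).isUnit
        have c13 : IsCoprime (X - C lam : F[X]) (X - C nu) :=
          Polynomial.isCoprime_X_sub_C_of_isUnit_sub (sub_ne_zero.mpr h13).isUnit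
        have c23 : IsCoprime (X - C mu : F[X]) (X - C nu) :=
          Polynomial.isCoprime_X_sub_C_of_isUnit_sub (sub_ne_zero.mpr h23).isUnit
        exact (c12.mul_right c13).mul_dvd d1 (c23.mul_dvd d2 d3)

end Cfsg.Agent.Helper23.Psu3x
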