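import Mathlib
import Cfsg.Prelude.Def_GeometricClasses

set_option autoImplicit false

open scoped MatrixGroups

namespace Cfsg.Agent.Helper23.S5998p0

theorem p0 {F : Type*} [Field F] [Fintype F] {p : ℕ} [Fact p.Prime] [CharP F p] (hF : Fintype.card F = p) (hp3 : p % 3 = 1) :
    ∃ w0 : F, w0 ≠ 1 ∧ w0 ^ 3 = 1 := by
  classical
  have h3 : 3 ∣ Fintype.card Fˣ := by
    rw [Fintype.card_units, hF]; omega
  haveI : Fact (Nat.Prime 3) := ⟨by norm_num⟩
  obtain ⟨u, hu⟩ := exists_prime_orderOf_dvd_card 3 h3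
  refine ⟨(u : F), ?_, ?_⟩
  · intro h
    have h1 : u = 1 := Units.ext h
    rw [h1, orderOf_one] at hu
    norm_num at hu
  · have h1 := pow_orderOf_eq_one u
    rw [hu] at h1
    have h2 := congrArg (fun v : Fˣ => (v : F)) h1
    simpa using h2

end Cfsg.Agent.Helper23.S5998p0
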