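import Mathlib
import Cfsg.Prelude.Def_GeometricClasses

set_option autoImplicit false

open scoped MatrixGroups

namespace Cfsg.Agent.Helper23.S5998p5

open Matrix

theorem adj_one_add {F : Type*} [Field F] (N : Matrix (Fin 3) (Fin 3) F) :
    adjugate (1 + N) = (1 + trace N) • (1 : Matrix (Fin 3) (Fin 3) F) - N + adjugate N := by
  ext a b
  fin_cases a <;> fin_cases b <;>
    simp [Matrix.adjugate_fin_three, Matrix.trace_fin_three] <;> ring

/-- an involution of determinant `1` which is not scalar is conjugate to the model involution -/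
theorem core {F : Type*} [Field F] (h2 : (2 : F) ≠ 0) (M : Matrix (Fin 3) (Fin 3) F)
    (hMM : M * M = 1) (hdet : M.det = 1)
    (hns : ∀ c : F, M ≠ c • (1 : Matrix (Fin 3) (Fin 3) F)) :
    ∃ K : Matrix (Fin 3) (Fin 3) F, K.det ≠ 0 ∧ M * K = K * !![-1,0,0; 0,0,-1; 0,-1,0] := by
  have adjM : adjugate M = M := by
    have h1 : M * adjugate M = 1 := by rw [Matrix.mul_adjugate, hdet, one_smul]
    calc adjugate M = (M * M) * adjugate M := by rw [hMM, Matrix.one_mul]
      _ = M * (M * adjugate M) := by rw [Matrix.mul_assoc]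
      _ = M := by rw [h1, Matrix.mul_one]
  have ht : trace M = -1 := by
    by_contra hne
    have h1 : adjugate (1 + M) = (1 + trace M) • (1 : Matrix (Fin 3) (Fin 3) F) := by
      rw [adj_one_add, adjM]; abel
    have h3 : (1 + M) * adjugate (1 + M) = (1 + M).det • (1 : Matrix (Fin 3) (Fin 3) F) :=
      Matrix.mul_adjugate _
    rw [h1, Matrix.mul_smul, Matrix.mul_one] at h3
    have hne' : (1 + trace M) ≠ 0 := fun h => hne (by linear_combination h)
    have h4 : (1 + M) = ((1 + trace M)⁻¹ * (1 + M).det) • (1 : Matrix (Fin 3) (Fin 3) F) := by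
      have h5 := congrArg (fun A => (1 + trace M)⁻¹ • A) h3
      simp only [smul_smul, inv_mul_cancel₀ hne', one_smul] at h5
      exact h5
    apply hns ((1 + trace M)⁻¹ * (1 + M).det - 1)
    rw [sub_smul, one_smul, ← h4]; abel
  have ht' : M 0 0 + M 1 1 + M 2 2 = -1 := by rw [← ht, Matrix.trace_fin_three]
  have hA : ∀ a b, adjugate M a b = M a b := fun a b => by rw [adjM]
  have hS : ∀ a b, (M * M) a b = (1 : Matrix (Fin 3) (Fin 3) F) a b := fun a b => by rw [hMM]
  have hA00 := hA 0 0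
  have hA10 := hA 1 0
  have hA20 := hA 2 0
  have hA11 := hA 1 1
  have hA21 := hA 2 1
  have hA01 := hA 0 1
  have hA22 := hA 2 2
  have hA02 := hA 0 2
  have hA12 := hA 1 2
  rw [Matrix.adjugate_fin_three] at hA00 hA10 hA20 hA11 hA21 hA01 hA22 hA02 hA12
  simp at hA00 hA10 hA20 hA11 hA21 hA01 hA22 hA02 hA12
  have hS00 := hS 0 0
  have hS11 := hS 1 1
  have hS22 := hS 2 2
  simp [Matrix.mul_apply, Fin.sum_univ_three] at hS00 hS11 hS22
  have h4 : (4 : F) ≠ 0 := by
    have h : (4 : F) = 2 * 2 := by norm_num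
    rw [h]; exact mul_ne_zero h2 h2
  have key : ∀ (D G : Matrix (Fin 3) (Fin 3) F) (i : Fin 3), D * D = 1 →
      (1 + M * D).det = 4 * (1 + M i i) → 1 + M i i ≠ 0 → G.det ≠ 0 →
      D * G = G * !![-1,0,0; 0,0,-1; 0,-1,0] →
      ∃ K : Matrix (Fin 3) (Fin 3) F, K.det ≠ 0 ∧ M * K = K * !![-1,0,0; 0,0,-1; 0,-1,0] := by
    intro D G i hDD hd hi hG hDG
    refine ⟨(1 + M * D) * G, ?_, ?_⟩
    · rw [Matrix.det_mul, hd]; exact mul_ne_zero (mul_ne_zero h4 hi) hG
    · have e1 : M * (1 + M * D) = (1 + M * D) * D := by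
        rw [Matrix.mul_add, Matrix.mul_one, ← Matrix.mul_assoc, hMM, Matrix.one_mul,
          Matrix.add_mul, Matrix.one_mul, Matrix.mul_assoc, hDD, Matrix.mul_one, add_comm]
      rw [← Matrix.mul_assoc, e1, Matrix.mul_assoc, hDG, ← Matrix.mul_assoc]
  by_cases h0 : 1 + M 0 0 ≠ 0
  · refine key (Matrix.diagonal ![1, -1, -1]) !![0, 1, -1; 1, 0, 0; 0, 1, 1] 0 ?_ ?_ h0 ?_ ?_
    · ext a b; fin_cases a <;> fin_cases b <;> simp [Matrix.mul_apply, Fin.sum_univ_three]
    · rw [Matrix.det_fin_three]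
      simp [Matrix.mul_apply, Fin.sum_univ_three]
      linear_combination (1 + M 0 0) * hA00 + M 0 1 * hA10 + M 0 2 * hA20 - (1 + M 0 0) * ht' + 2 * hS00
    · have h : (!![0, 1, -1; 1, 0, 0; 0, 1, 1] : Matrix (Fin 3) (Fin 3) F).det = -2 := by
        rw [Matrix.det_fin_three]; simp; ring
      rw [h]; exact neg_ne_zero.mpr h2
    · ext a b; fin_cases a <;> fin_cases b <;> simp [Matrix.mul_apply, Fin.sum_univ_three]
  by_cases h1 : 1 + M 1 1 ≠ 0
  · refine key (Matrix.diagonal ![-1, 1, -1]) !![1, 0, 0; 0, 1, -1; 0, 1, 1] 1 ?_ ?_ h1 ?_ ?_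
    · ext a b; fin_cases a <;> fin_cases b <;> simp [Matrix.mul_apply, Fin.sum_univ_three]
    · rw [Matrix.det_fin_three]
      simp [Matrix.mul_apply, Fin.sum_univ_three]
      linear_combination (1 + M 1 1) * hA11 + M 1 2 * hA21 + M 1 0 * hA01 - (1 + M 1 1) * ht' + 2 * hS11
    · have h : (!![1, 0, 0; 0, 1, -1; 0, 1, 1] : Matrix (Fin 3) (Fin 3) F).det = 2 := by
        rw [Matrix.det_fin_three]; simp; ring
      rw [h]; exact h2
    · ext a b; fin_cases a <;> fin_cases b <;> simp [Matrix.mul_apply, Fin.sum_univ_three]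
  by_cases h22 : 1 + M 2 2 ≠ 0
  · refine key (Matrix.diagonal ![-1, -1, 1]) !![1, 0, 0; 0, 1, 1; 0, 1, -1] 2 ?_ ?_ h22 ?_ ?_
    · ext a b; fin_cases a <;> fin_cases b <;> simp [Matrix.mul_apply, Fin.sum_univ_three]
    · rw [Matrix.det_fin_three]
      simp [Matrix.mul_apply, Fin.sum_univ_three]
      linear_combination (1 + M 2 2) * hA22 + M 2 0 * hA02 + M 2 1 * hA12 - (1 + M 2 2) * ht' + 2 * hS22
    · have h : (!![1, 0, 0; 0, 1, 1; 0, 1, -1] : Matrix (Fin 3) (Fin 3) F).det = -2 := by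
        rw [Matrix.det_fin_three]; simp; ring
      rw [h]; exact neg_ne_zero.mpr h2
    · ext a b; fin_cases a <;> fin_cases b <;> simp [Matrix.mul_apply, Fin.sum_univ_three]
  · exfalso
    have h0' := not_not.mp h0
    have h1' := not_not.mp h1
    have h22' := not_not.mp h22
    apply h2
    linear_combination h0' + h1' + h22' - ht'

theorem p5 {F : Type*} [Field F] (h2 : (2 : F) ≠ 0) (x : GL (Fin 3) F) (hdet : (x : Matrix (Fin 3) (Fin 3) F).det = 1) (z : F)
    (hx2 : ((x ^ 2 : GL (Fin 3) F) : Matrix (Fin 3) (Fin 3) F) = z • (1 : Matrix (Fin 3) (Fin 3) F))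
    (hns : ∀ z : F, (x : Matrix (Fin 3) (Fin 3) F) ≠ z • (1 : Matrix (Fin 3) (Fin 3) F)) :
    ∃ (k : GL (Fin 3) F) (c : F), (x : Matrix (Fin 3) (Fin 3) F) * (k : Matrix (Fin 3) (Fin 3) F) = c • ((k : Matrix (Fin 3) (Fin 3) F) * !![-1,0,0; 0,0,-1; 0,-1,0]) := by
  have hXX : (x : Matrix (Fin 3) (Fin 3) F) * (x : Matrix (Fin 3) (Fin 3) F) = z • 1 := by
    rw [← hx2, pow_two]; rfl
  have hz3 : z ^ 3 = 1 := by
    have h := congrArg Matrix.det hXX
    rw [Matrix.det_mul, hdet, Matrix.det_smul, Matrix.det_one, Fintype.card_fin] at h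
    simpa using h.symm
  have hz0 : z ≠ 0 := by rintro rfl; simp at hz3
  obtain ⟨K, hK, hMK⟩ := core h2 (z • (x : Matrix (Fin 3) (Fin 3) F)) (by
      rw [Matrix.smul_mul, Matrix.mul_smul, hXX, smul_smul, smul_smul]
      have h : z * z * z = 1 := by rw [← hz3]; ring
      rw [h, one_smul]) (by
      rw [Matrix.det_smul, hdet, Fintype.card_fin, mul_one]; exact hz3) (by
      intro c hc
      apply hns (z⁻¹ * c)
      have h := congrArg (fun A => z⁻¹ • A) hc
      simp only [smul_smul, inv_mul_cancel₀ hz0, one_smul] at h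
      exact h)
  refine ⟨Matrix.GeneralLinearGroup.mkOfDetNeZero K hK, z ^ 2, ?_⟩
  have h1 : z • ((x : Matrix (Fin 3) (Fin 3) F) * K) = K * !![-1,0,0; 0,0,-1; 0,-1,0] := by
    rw [← Matrix.smul_mul]; exact hMK
  show (x : Matrix (Fin 3) (Fin 3) F) * K = z ^ 2 • (K * !![-1,0,0; 0,0,-1; 0,-1,0])
  rw [← h1, smul_smul]
  have h : z ^ 2 * z = 1 := by rw [← hz3]; ring
  rw [h, one_smul]

end Cfsg.Agent.Helper23.S5998p5
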