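import Mathlib
import Cfsg.Prelude.Def_GeometricClasses

set_option autoImplicit false

open scoped MatrixGroups

namespace Cfsg.Agent.Helper23.S5998p7

theorem p7 {F : Type*} [Field F] [Fintype F] (r : ℕ) [Fact r.Prime] (hr3 : r ≠ 3)
    (hr : r ∣ Nat.card ↥(Cfsg.Geo.specialLinear (Fin 3) F)) :
    ∃ x ∈ Cfsg.Geo.specialLinear (Fin 3) F, orderOf x = r ∧ (∀ z : F, (x : Matrix (Fin 3) (Fin 3) F) ≠ z • (1 : Matrix (Fin 3) (Fin 3) F)) := by
  classical
  obtain ⟨y, hy⟩ := exists_prime_orderOf_dvd_card' r hr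
  refine ⟨(y : GL (Fin 3) F), y.2, ?_, ?_⟩
  · rw [Subgroup.orderOf_coe]; exact hy
  · intro z hz
    have hdet : Matrix.GeneralLinearGroup.det (y : GL (Fin 3) F) = 1 := y.2
    have h1 : ((y : GL (Fin 3) F) : Matrix (Fin 3) (Fin 3) F).det = 1 := by
      have h := congrArg (fun u : Fˣ => (u : F)) hdet
      simpa using h
    rw [hz, Matrix.det_smul, Matrix.det_one, Fintype.card_fin, mul_one] at h1
    have hyr : (y : GL (Fin 3) F) ^ r = 1 := by
      have h := pow_orderOf_eq_one y
      rw [hy] at h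
      have h' := congrArg (fun g : ↥(Cfsg.Geo.specialLinear (Fin 3) F) => (g : GL (Fin 3) F)) h
      simpa using h'
    have h2 : z ^ r = 1 := by
      have h := congrArg (fun g : GL (Fin 3) F => (g : Matrix (Fin 3) (Fin 3) F)) hyr
      simp only [Units.val_pow_eq_pow_val, Units.val_one] at h
      rw [hz, smul_pow, one_pow] at h
      have h' := congrFun (congrFun h 0) 0
      simpa using h'
    have hz1 : z = 1 := by
      have hcop : Nat.Coprime 3 r :=
        (Nat.coprime_primes (by norm_num) (Fact.out : r.Prime)).mpr (Ne.symm hr3)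
      have h : z ^ Nat.gcd 3 r = 1 := pow_gcd_eq_one.mpr ⟨h1, h2⟩
      rw [Nat.Coprime.gcd_eq_one hcop, pow_one] at h
      exact h
    have hy1 : (y : GL (Fin 3) F) = 1 := by
      apply Units.ext
      rw [hz, hz1, one_smul]
      rfl
    have hy2 : y = 1 := Subtype.ext hy1
    rw [hy2, orderOf_one] at hy
    exact (Fact.out : r.Prime).one_lt.ne hy

end Cfsg.Agent.Helper23.S5998p7
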