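import Mathlib
import Cfsg.Prelude.Def_ConjugacyFunctors
import Cfsg.Prelude.Def_PLocal
import Cfsg.Agent.Helper10.SecFusion2
import Cfsg.Agent.Helper23.PSolv
import Cfsg.Agent.Helper14.Basic
import Cfsg.Agent.Helper19.SylowQuot

/-!
helper23: lifting a factorization `X̄ = C(Ω₁Z(T̄)) N(W(T̄))` from the constrained quotient
`X / O_{p'}(X)` to `X`, when `X` has a normal `p`-subgroup `Q` with `C_T(Q) ≤ Q`.
-/

set_option autoImplicit false

namespace Cfsg.Agent.Helper23.TF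

open Cfsg

universe u

variable {p : ℕ} [Fact p.Prime]

/-- The factorization `X = C_X(Ω₁Z(T)) N_X(W(T))` for every Sylow `T`, for constrained `X`. -/
def FacCN (p : ℕ) (W : ∀ (Q : Type u) [Group Q], Subgroup Q) (X : Type u) [Group X] : Prop :=
  Subgroup.centralizer ((pCore p X : Subgroup X) : Set X) ≤ pCore p X →
    ∀ T : Sylow p X, ∀ x : X,
      ∃ a ∈ Subgroup.centralizer ((omegaOne p ((T : Subgroup X) ⊓
          Subgroup.centralizer ((T : Subgroup X) : Set X)) : Subgroup X) : Set X),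
      ∃ b ∈ Subgroup.normalizer ((inducedFunctor (G := X) W (T : Subgroup X) : Subgroup X) : Set X),
        x = a * b

omit [Fact p.Prime] in
/-- To centralize `Ω₁(H)` it is enough to commute with the generators. -/
theorem mem_centralizer_omegaOne {X : Type*} [Group X] (H : Subgroup X) (a : X)
    (h : ∀ z ∈ H, z ^ p = 1 → a * z = z * a) :
    a ∈ Subgroup.centralizer ((omegaOne p H : Subgroup X) : Set X) := by
  rw [Subgroup.mem_centralizer_iff]
  intro z hz
  have h1 : omegaOne p H ≤ Subgroup.centralizer ({a} : Set X) := by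
    unfold omegaOne
    rw [Subgroup.closure_le]
    rintro z ⟨hzH, hzp⟩
    rw [SetLike.mem_coe, Subgroup.mem_centralizer_iff]
    intro b hb
    rw [Set.mem_singleton_iff] at hb
    rw [hb]; exact h z hzH hzp
  have h2 := h1 hz
  rw [Subgroup.mem_centralizer_iff] at h2
  exact (h2 a rfl).symm

theorem fac_lift {X : Type u} [Group X] [Finite X] (T : Sylow p X) (Q : Subgroup X) [Q.Normal]
    (hQ : IsPGroup p Q)
    (hCQ : (T : Subgroup X) ⊓ Subgroup.centralizer (Q : Set X) ≤ Q)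
    (W : ∀ (Q : Type u) [Group Q], Subgroup Q) (hW : IsCharPFunctor.{u} p W)
    (R : Subgroup X) [R.Normal] (hR : (Nat.card R).Coprime p) (hR0 : pPrimeCore p (X ⧸ R) = ⊥)
    (hfac : FacCN p W (X ⧸ R)) :
    ∀ x : X, ∃ a ∈ Subgroup.centralizer ((omegaOne p ((T : Subgroup X) ⊓
          Subgroup.centralizer ((T : Subgroup X) : Set X)) : Subgroup X) : Set X),
      ∃ b ∈ Subgroup.normalizer ((inducedFunctor (G := X) W (T : Subgroup X) : Subgroup X) : Set X),
        x = a * b := by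
  have hp : p.Prime := Fact.out
  obtain ⟨π, hπ⟩ : ∃ π : X →* X ⧸ R, π = QuotientGroup.mk' R := ⟨_, rfl⟩
  have hπs : Function.Surjective π := by rw [hπ]; exact QuotientGroup.mk'_surjective R
  have hπ1 : ∀ x : X, π x = 1 ↔ x ∈ R := by
    intro x; rw [hπ, QuotientGroup.mk'_apply, QuotientGroup.eq_one_iff]
  have hinj : ∀ x ∈ (T : Subgroup X), π x = 1 → x = 1 := fun x hx h1 =>
    Cfsg.Agent.Helper10.eq_one_of_mem_coprime_of_mem_pGroup hR T.2 ((hπ1 x).mp h1) hx
  obtain ⟨Tb, hTb⟩ : ∃ Tb : Sylow p (X ⧸ R), (Tb : Subgroup (X ⧸ R)) = (T : Subgroup X).map π :=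
    ⟨T.mapSurjective hπs, Sylow.coe_mapSurjective hπs T⟩
  have hQn : Q.Normal := inferInstance
  have hQT : Q ≤ (T : Subgroup X) :=
    (Cfsg.Agent.Helper14.le_pCore hQn hQ).trans (Cfsg.Agent.Helper14.pCore_le_sylow T)
  have hQb : Q.map π ≤ pCore p (X ⧸ R) := by
    apply Cfsg.Agent.Helper14.le_pCore
    · exact Subgroup.Normal.map hQn π hπs
    · exact hQ.map π
  have hcomm : ∀ (a : X) (q : X), q ∈ Q → π a * π q = π q * π a → a * q = q * a := by
    intro a q hq h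
    have h1 : a * q * a⁻¹ * q⁻¹ ∈ (T : Subgroup X) :=
      hQT (Q.mul_mem (hQn.conj_mem q hq a) (Q.inv_mem hq))
    have h2 : π (a * q * a⁻¹ * q⁻¹) = 1 := by
      rw [map_mul, map_mul, map_mul, map_inv, map_inv, h]; group
    have h3 := hinj _ h1 h2
    calc a * q = (a * q * a⁻¹ * q⁻¹) * (q * a) := by group
      _ = q * a := by rw [h3, one_mul]
  have hcons : Subgroup.centralizer ((pCore p (X ⧸ R) : Subgroup (X ⧸ R)) : Set (X ⧸ R)) ≤
      pCore p (X ⧸ R) := by
    apply Cfsg.Agent.Helper10.centralizer_pCore_le Tb hR0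
    intro y hy
    obtain ⟨hyT, hyC⟩ := Subgroup.mem_inf.mp hy
    rw [hTb] at hyT
    obtain ⟨t, ht, rfl⟩ := hyT
    apply hQb
    refine ⟨t, hCQ (Subgroup.mem_inf.mpr ⟨ht, ?_⟩), rfl⟩
    rw [Subgroup.mem_centralizer_iff]
    intro q hq
    have h1 := (Subgroup.mem_centralizer_iff.mp hyC) (π q) (hQb ⟨q, hq, rfl⟩)
    exact (hcomm t q hq h1.symm).symm
  intro x
  obtain ⟨ab, hab, bb, hbb, hx⟩ := hfac hcons Tb (π x)
  obtain ⟨D, hD⟩ : ∃ D, D = inducedFunctor W (T : Subgroup X) := ⟨_, rfl⟩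
  have hDT : D ≤ (T : Subgroup X) := by rw [hD]; exact Cfsg.Agent.Helper10.ind_le W _
  have hDp : IsPGroup p D := T.2.to_le hDT
  have hindb : inducedFunctor W (Tb : Subgroup (X ⧸ R)) = D.map π := by
    rw [hTb, hD]; exact Cfsg.Agent.Helper10.ind_map_injOn W hW π (T : Subgroup X) T.2 hinj
  obtain ⟨b₀, hb₀⟩ := hπs bb
  have hidxD : ¬ p ∣ (D.subgroupOf (D ⊔ R)).index := by
    intro hdvd
    have h1 : (D.subgroupOf (D ⊔ R)).index = D.relIndex R :=
      Cfsg.Agent.Helper19.relIndex_sup_normal D R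
    rw [h1] at hdvd
    exact (Nat.Prime.coprime_iff_not_dvd hp).mp hR.symm
      (dvd_trans hdvd (Subgroup.relIndex_dvd_card D R))
  have hb₀n : QuotientGroup.mk' R b₀ ∈ Subgroup.normalizer
      ((D.map (QuotientGroup.mk' R) : Subgroup (X ⧸ R)) : Set (X ⧸ R)) := by
    rw [← hπ, hb₀, ← hindb]; exact hbb
  obtain ⟨b, hbn, hbπ⟩ := Cfsg.Agent.Helper19.exists_mem_normalizer_of_mk R D hDp hidxD b₀ hb₀n
  have hπb : π b = bb := by rw [hπ, hbπ, ← hπ, hb₀]
  refine ⟨x * b⁻¹, ?_, b, by rw [← hD]; exact hbn, by group⟩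
  apply mem_centralizer_omegaOne
  intro z hz hzp
  obtain ⟨hzT, hzC⟩ := Subgroup.mem_inf.mp hz
  have hzQ : z ∈ Q := by
    apply hCQ
    refine Subgroup.mem_inf.mpr ⟨hzT, ?_⟩
    rw [Subgroup.mem_centralizer_iff]
    intro q hq
    exact (Subgroup.mem_centralizer_iff.mp hzC) q (hQT hq)
  apply hcomm _ z hzQ
  have h1 : π (x * b⁻¹) = ab := by
    rw [map_mul, map_inv, hπb, hx]; group
  rw [h1]
  have h2 : π z ∈ omegaOne p ((Tb : Subgroup (X ⧸ R)) ⊓
      Subgroup.centralizer ((Tb : Subgroup (X ⧸ R)) : Set (X ⧸ R))) := by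
    unfold omegaOne
    apply Subgroup.subset_closure
    refine ⟨Subgroup.mem_inf.mpr ⟨?_, ?_⟩, by rw [← map_pow, hzp, map_one]⟩
    · rw [hTb]; exact ⟨z, hzT, rfl⟩
    · rw [Subgroup.mem_centralizer_iff]
      intro y hy
      rw [SetLike.mem_coe, hTb] at hy
      obtain ⟨t, ht, rfl⟩ := hy
      rw [← map_mul, ← map_mul, (Subgroup.mem_centralizer_iff.mp hzC) t ht]
  exact ((Subgroup.mem_centralizer_iff.mp hab) (π z) h2).symm

end Cfsg.Agent.Helper23.TF
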