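import Mathlib
import Cfsg.Agent.Helper23.TF1

/-!
helper23: triple factorizations.  Inside a finite group `G` with Sylow `p`-subgroup `S` and
`Z = Ω₁Z(S)`: if a subgroup `K ≥ S` normalizes an abelian `p`-subgroup `U ≥ Z`, the
factorization hypothesis on constrained sections gives `K = C_K(Z) N_K(W(S))`; hence the
normal closures of `Z` under `N_G(W₁(S))` and `N_G(W₂(S))` coincide.
-/

set_option autoImplicit false

namespace Cfsg.Agent.Helper23.TF

open Cfsg

universe u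

section Ncl

variable {G : Type*} [Group G]

/-- The subgroup generated by the `N`-conjugates of `Z`. -/
def ncl (N Z : Subgroup G) : Subgroup G :=
  Subgroup.closure {x | ∃ n ∈ N, ∃ z ∈ Z, x = n * z * n⁻¹}

theorem le_ncl (N Z : Subgroup G) : Z ≤ ncl N Z := fun z hz =>
  Subgroup.subset_closure ⟨1, N.one_mem, z, hz, by simp⟩

theorem ncl_le {N Z B : Subgroup G} (hZ : Z ≤ B) (hN : N ≤ Subgroup.normalizer (B : Set G)) :
    ncl N Z ≤ B := by
  unfold ncl
  rw [Subgroup.closure_le]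
  rintro _ ⟨n, hn, z, hz, rfl⟩
  exact (Subgroup.mem_normalizer_iff.mp (hN hn) z).mp (hZ hz)

theorem ncl_mono {N N' : Subgroup G} (Z : Subgroup G) (h : N ≤ N') : ncl N Z ≤ ncl N' Z := by
  unfold ncl
  apply Subgroup.closure_mono
  rintro _ ⟨n, hn, z, hz, rfl⟩
  exact ⟨n, h hn, z, hz, rfl⟩

theorem le_normalizer_ncl [Finite G] (N Z : Subgroup G) :
    N ≤ Subgroup.normalizer (ncl N Z : Set G) := by
  intro n hn
  apply Cfsg.Agent.Helper9.mem_normalizer_of_conj_le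
  intro q hq
  have h1 : ncl N Z ≤ (ncl N Z).comap (MulAut.conj n).toMonoidHom := by
    have h2 : Subgroup.closure {x | ∃ m ∈ N, ∃ z ∈ Z, x = m * z * m⁻¹} ≤
        (ncl N Z).comap (MulAut.conj n).toMonoidHom := by
      rw [Subgroup.closure_le]
      rintro _ ⟨m, hm, z, hz, rfl⟩
      show n * (m * z * m⁻¹) * n⁻¹ ∈ ncl N Z
      apply Subgroup.subset_closure
      exact ⟨n * m, N.mul_mem hn hm, z, hz, by group⟩
    exact h2
  exact h1 hq

theorem conj_mem_centralizer {D : Subgroup G} {k c : G}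
    (hk : k ∈ Subgroup.normalizer (D : Set G)) (hc : c ∈ Subgroup.centralizer (D : Set G)) :
    k * c * k⁻¹ ∈ Subgroup.centralizer (D : Set G) := by
  rw [Subgroup.mem_centralizer_iff]
  intro d hd
  have h1 : k⁻¹ * d * k ∈ D := by
    have := (Subgroup.mem_normalizer_iff.mp (Subgroup.inv_mem _ hk) d).mp hd
    simpa using this
  have h2 := (Subgroup.mem_centralizer_iff.mp hc) _ h1
  calc d * (k * c * k⁻¹) = k * ((k⁻¹ * d * k) * c) * k⁻¹ := by group
    _ = k * (c * (k⁻¹ * d * k)) * k⁻¹ := by rw [h2]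
    _ = k * c * k⁻¹ * d := by group

theorem normalizer_le_normalizer_center [Finite G] (D : Subgroup G) :
    Subgroup.normalizer (D : Set G) ≤
      Subgroup.normalizer ((D ⊓ Subgroup.centralizer (D : Set G) : Subgroup G) : Set G) := by
  intro k hk
  apply Cfsg.Agent.Helper9.mem_normalizer_of_conj_le
  intro u hu
  obtain ⟨hu1, hu2⟩ := Subgroup.mem_inf.mp hu
  exact Subgroup.mem_inf.mpr ⟨(Subgroup.mem_normalizer_iff.mp hk u).mp hu1,
    conj_mem_centralizer hk hu2⟩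

theorem map_normalClosure_eq_ncl [Finite G] (N Z : Subgroup G) (hZN : Z ≤ N) :
    (Subgroup.normalClosure ((Z.subgroupOf N : Subgroup ↥N) : Set ↥N)).map N.subtype =
      ncl N Z := by
  apply le_antisymm
  · rw [Subgroup.map_le_iff_le_comap]
    haveI : ((ncl N Z).comap N.subtype).Normal := by
      constructor
      intro x hx g
      rw [Subgroup.mem_comap] at hx ⊢
      exact (Subgroup.mem_normalizer_iff.mp (le_normalizer_ncl N Z g.2) _).mp hx
    apply Subgroup.normalClosure_le_normal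
    intro x hx
    exact le_ncl N Z (Subgroup.mem_subgroupOf.mp hx)
  · apply ncl_le
    · intro z hz
      exact ⟨⟨z, hZN hz⟩, Subgroup.subset_normalClosure (Subgroup.mem_subgroupOf.mpr hz), rfl⟩
    · intro n hn
      apply Cfsg.Agent.Helper9.mem_normalizer_of_conj_le
      rintro _ ⟨y, hy, rfl⟩
      have hnorm : (Subgroup.normalClosure ((Z.subgroupOf N : Subgroup ↥N) : Set ↥N)).Normal :=
        Subgroup.normalClosure_normal
      exact ⟨(⟨n, hn⟩ : ↥N) * y * (⟨n, hn⟩ : ↥N)⁻¹, hnorm.conj_mem y hy _, rfl⟩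

theorem pow_eq_one_of_mem_closure {p : ℕ} (B : Subgroup G)
    (hB : B ≤ Subgroup.centralizer (B : Set G)) (s : Set G)
    (hs : ∀ x ∈ s, x ∈ B ∧ x ^ p = 1) : ∀ x ∈ Subgroup.closure s, x ∈ B ∧ x ^ p = 1 := by
  intro x hx
  induction hx using Subgroup.closure_induction with
  | mem x hx => exact hs x hx
  | one => exact ⟨B.one_mem, one_pow p⟩
  | mul x y _ _ ihx ihy =>
    refine ⟨B.mul_mem ihx.1 ihy.1, ?_⟩
    have hc : Commute x y := ((Subgroup.mem_centralizer_iff.mp (hB ihy.1)) x ihx.1)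
    rw [hc.mul_pow, ihx.2, ihy.2, one_mul]
  | inv x _ ih => exact ⟨B.inv_mem ih.1, by rw [inv_pow, ih.2, inv_one]⟩

end Ncl

section Main

variable {p : ℕ} [Fact p.Prime] {G : Type u} [Group G] [Finite G]

/-- If `S ≤ K` and `K` normalizes an abelian `p`-subgroup `U` containing `Z = Ω₁Z(S)`, then
`K = C_K(Z) N_K(W(S))`. -/
theorem fac_in_K (S : Sylow p G)
    (W : ∀ (Q : Type u) [Group Q], Subgroup Q) (hW : IsCharPFunctor.{u} p W)
    (hfac : ∀ (K R : Subgroup G) [(R.subgroupOf K).Normal],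
      FacCN p W (↥K ⧸ R.subgroupOf K))
    (K U : Subgroup G) (hSK : (S : Subgroup G) ≤ K) (hKU : K ≤ Subgroup.normalizer (U : Set G))
    (hUS : U ≤ (S : Subgroup G)) (hUab : U ≤ Subgroup.centralizer (U : Set G))
    (hZU : omegaOne p ((S : Subgroup G) ⊓ Subgroup.centralizer ((S : Subgroup G) : Set G)) ≤ U) :
    ∀ k ∈ K, ∃ a ∈ Subgroup.centralizer ((omegaOne p ((S : Subgroup G) ⊓
          Subgroup.centralizer ((S : Subgroup G) : Set G)) : Subgroup G) : Set G),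
      ∃ b ∈ K ⊓ Subgroup.normalizer
          ((inducedFunctor (G := G) W (S : Subgroup G) : Subgroup G) : Set G), k = a * b := by
  classical
  obtain ⟨Z, hZdef⟩ : ∃ Z : Subgroup G, Z = omegaOne p ((S : Subgroup G) ⊓
      Subgroup.centralizer ((S : Subgroup G) : Set G)) := ⟨_, rfl⟩
  rw [← hZdef] at hZU ⊢
  have hZc : Z ≤ Subgroup.centralizer ((S : Subgroup G) : Set G) := by
    rw [hZdef]; unfold omegaOne
    rw [Subgroup.closure_le]
    rintro z ⟨hz, -⟩
    exact (Subgroup.mem_inf.mp hz).2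
  obtain ⟨Cu, hCu⟩ : ∃ Cu : Subgroup G, Cu = Subgroup.centralizer (U : Set G) := ⟨_, rfl⟩
  have hKCu : ∀ k ∈ K, ∀ c ∈ Cu, k * c * k⁻¹ ∈ Cu := by
    intro k hk c hc
    rw [hCu] at hc ⊢
    exact conj_mem_centralizer (hKU hk) hc
  obtain ⟨Q, hQdef⟩ : ∃ Q : Subgroup G, Q = (S : Subgroup G) ⊓ Cu := ⟨_, rfl⟩
  have hQS : Q ≤ (S : Subgroup G) := by rw [hQdef]; exact inf_le_left
  have hQCu : Q ≤ Cu := by rw [hQdef]; exact inf_le_right
  have hUQ : U ≤ Q := by rw [hQdef, hCu]; exact le_inf hUS hUab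
  have hQp : IsPGroup p Q := S.2.to_le hQS
  have hKQ : ∀ k ∈ K, ∀ q ∈ Q, k * q * k⁻¹ ∈ (S : Subgroup G) → k * q * k⁻¹ ∈ Q := by
    intro k hk q hq h
    rw [hQdef]
    exact Subgroup.mem_inf.mpr ⟨h, hKCu k hk q (hQCu hq)⟩
  have hSQ : (S : Subgroup G) ≤ Subgroup.normalizer (Q : Set G) := by
    intro s hs
    apply Cfsg.Agent.Helper9.mem_normalizer_of_conj_le
    intro q hq
    exact hKQ s (hSK hs) q hq
      (Subgroup.mul_mem _ (Subgroup.mul_mem _ hs (hQS hq)) (Subgroup.inv_mem _ hs))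
  obtain ⟨M, hMdef⟩ : ∃ M : Subgroup G, M = K ⊓ Subgroup.normalizer (Q : Set G) := ⟨_, rfl⟩
  have hMK : M ≤ K := by rw [hMdef]; exact inf_le_left
  have hMQ : M ≤ Subgroup.normalizer (Q : Set G) := by rw [hMdef]; exact inf_le_right
  have hSM : (S : Subgroup G) ≤ M := by rw [hMdef]; exact le_inf hSK hSQ
  have hQM : Q ≤ M := hQS.trans hSM
  -- the factorization in `M`
  have hM : ∀ m ∈ M, ∃ a ∈ Subgroup.centralizer ((Z : Subgroup G) : Set G),
      ∃ b ∈ K ⊓ Subgroup.normalizer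
          ((inducedFunctor (G := G) W (S : Subgroup G) : Subgroup G) : Set G), m = a * b := by
    intro m hm
    obtain ⟨T', hT'⟩ : ∃ T' : Sylow p ↥M, (T' : Subgroup ↥M) = (S : Subgroup G).subgroupOf M :=
      ⟨S.subtype hSM, rfl⟩
    obtain ⟨Q', hQ'⟩ : ∃ Q' : Subgroup ↥M, Q' = Q.subgroupOf M := ⟨_, rfl⟩
    haveI hQ'n : Q'.Normal := by
      rw [hQ']; exact Subgroup.normal_subgroupOf_of_le_normalizer hMQ
    have hQ'p : IsPGroup p Q' := by rw [hQ']; exact hQp.comap_subtype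
    have hCQ' : (T' : Subgroup ↥M) ⊓ Subgroup.centralizer (Q' : Set ↥M) ≤ Q' := by
      intro x hx
      obtain ⟨hx1, hx2⟩ := Subgroup.mem_inf.mp hx
      rw [hT', Subgroup.mem_subgroupOf] at hx1
      rw [hQ', Subgroup.mem_subgroupOf, hQdef]
      refine Subgroup.mem_inf.mpr ⟨hx1, ?_⟩
      rw [hCu, Subgroup.mem_centralizer_iff]
      intro u hu
      have hu' : (⟨u, hQM (hUQ hu)⟩ : ↥M) ∈ Q' := by
        rw [hQ', Subgroup.mem_subgroupOf]; exact hUQ hu
      have h1 := (Subgroup.mem_centralizer_iff.mp hx2) _ hu'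
      exact congrArg Subtype.val h1
    obtain ⟨R', hR'⟩ : ∃ R' : Subgroup ↥M, R' = pPrimeCore p ↥M := ⟨_, rfl⟩
    haveI hR'n : R'.Normal := by rw [hR']; exact Cfsg.Agent.Helper23.pPrimeCore_normal_fin p
    have hR'c : (Nat.card R').Coprime p := by
      rw [hR']; exact Cfsg.Agent.Helper23.pPrimeCore_coprime p
    have hR'0 : pPrimeCore p (↥M ⧸ R') = ⊥ := by
      subst hR'; exact Cfsg.Agent.Helper23.pPrimeCore_quotient_pPrimeCore p
    have hfac' : FacCN p W (↥M ⧸ R') := by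
      have e : (R'.map M.subtype).subgroupOf M = R' := by
        unfold Subgroup.subgroupOf
        exact Subgroup.comap_map_eq_self_of_injective M.subtype_injective _
      haveI hn : ((R'.map M.subtype).subgroupOf M).Normal := by rw [e]; exact hR'n
      have key : ∀ (R₂ : Subgroup ↥M), R₂ = R' → ∀ [hn₂ : R₂.Normal],
          FacCN p W (↥M ⧸ R₂) → FacCN p W (↥M ⧸ R') := by
        rintro R₂ rfl hn₂ h
        exact h
      exact key _ e (hfac M (R'.map M.subtype))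
    obtain ⟨a, ha, b, hb, hab⟩ := fac_lift T' Q' hQ'p hCQ' W hW R' hR'c hR'0 hfac' ⟨m, hm⟩
    have hTmap : (T' : Subgroup ↥M).map M.subtype = (S : Subgroup G) := by
      rw [hT']; exact Subgroup.map_subgroupOf_eq_of_le hSM
    refine ⟨(a : G), ?_, (b : G), Subgroup.mem_inf.mpr ⟨hMK b.2, ?_⟩, ?_⟩
    · rw [hZdef]
      apply mem_centralizer_omegaOne
      intro z hz hzp
      obtain ⟨hz1, hz2⟩ := Subgroup.mem_inf.mp hz
      have hz' : (⟨z, hSM hz1⟩ : ↥M) ∈ omegaOne p ((T' : Subgroup ↥M) ⊓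
          Subgroup.centralizer ((T' : Subgroup ↥M) : Set ↥M)) := by
        unfold omegaOne
        apply Subgroup.subset_closure
        refine ⟨Subgroup.mem_inf.mpr ⟨?_, ?_⟩, ?_⟩
        · rw [hT', Subgroup.mem_subgroupOf]; exact hz1
        · rw [Subgroup.mem_centralizer_iff]
          intro t ht
          rw [SetLike.mem_coe, hT', Subgroup.mem_subgroupOf] at ht
          exact Subtype.ext ((Subgroup.mem_centralizer_iff.mp hz2) (t : G) ht)
        · exact Subtype.ext hzp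
      have h1 := (Subgroup.mem_centralizer_iff.mp ha) _ hz'
      exact (congrArg Subtype.val h1).symm
    · have h1 := Cfsg.Agent.Helper10.ind_map_subtype W hW M (T' : Subgroup ↥M) T'.2
      rw [hTmap] at h1
      rw [h1]
      exact Subgroup.le_normalizer_map M.subtype (Subgroup.mem_map_of_mem _ hb)
    · exact congrArg Subtype.val hab
  -- Frattini argument
  intro k hk
  obtain ⟨N, hNdef⟩ : ∃ N : Subgroup G, N = (S : Subgroup G) ⊔ (K ⊓ Cu) := ⟨_, rfl⟩
  have hNK : N ≤ K := by rw [hNdef]; exact sup_le hSK inf_le_left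
  have hNZ : N ≤ Subgroup.centralizer ((Z : Subgroup G) : Set G) := by
    rw [hNdef]
    apply sup_le
    · intro s hs
      rw [Subgroup.mem_centralizer_iff]
      intro z hz
      exact ((Subgroup.mem_centralizer_iff.mp (hZc hz)) s hs).symm
    · intro c hc
      have hc2 : c ∈ Cu := (Subgroup.mem_inf.mp hc).2
      rw [hCu] at hc2
      rw [Subgroup.mem_centralizer_iff]
      intro z hz
      exact (Subgroup.mem_centralizer_iff.mp hc2) z (hZU hz)
  have hidx : ¬ p ∣ (S : Subgroup G).relIndex N := by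
    intro hdvd
    have hSN : (S : Subgroup G) ≤ N := by rw [hNdef]; exact le_sup_left
    exact S.not_dvd_index (dvd_trans hdvd (Subgroup.relIndex_dvd_index_of_le hSN))
  have hQ'N : Q.map (MulAut.conj k).toMonoidHom ≤ N := by
    rintro _ ⟨q, hq, rfl⟩
    rw [hNdef]
    apply Subgroup.mem_sup_right
    refine Subgroup.mem_inf.mpr ⟨?_, hKCu k hk q (hQCu hq)⟩
    exact K.mul_mem (K.mul_mem hk (hSK (hQS hq))) (K.inv_mem hk)
  obtain ⟨n, hn, hnQ⟩ := Cfsg.Agent.Helper10.exists_conj_into_of_relIndex N (S : Subgroup G)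
    S.2 hidx (Q.map (MulAut.conj k).toMonoidHom) (hQp.map _) hQ'N
  have hnkK : n * k ∈ K := K.mul_mem (hNK hn) hk
  have hnkM : n * k ∈ M := by
    rw [hMdef]
    refine Subgroup.mem_inf.mpr ⟨hnkK, ?_⟩
    apply Cfsg.Agent.Helper9.mem_normalizer_of_conj_le
    intro q hq
    apply hKQ (n * k) hnkK q hq
    have h1 := hnQ (k * q * k⁻¹) ⟨q, hq, rfl⟩
    have h2 : n * k * q * (n * k)⁻¹ = n * (k * q * k⁻¹) * n⁻¹ := by group
    rw [h2]; exact h1
  obtain ⟨a, ha, b, hb, hab⟩ := hM (n * k) hnkM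
  refine ⟨n⁻¹ * a, Subgroup.mul_mem _ (Subgroup.inv_mem _ (hNZ hn)) ha, b, hb, ?_⟩
  rw [mul_assoc, ← hab]; group

/-- If `K ≥ S` normalizes `W₁(S)`, then the `K`-conjugates of `Z` are `N_K(W₂(S))`-conjugates. -/
theorem ncl_eq_of_le (S : Sylow p G)
    (W₁ W₂ : ∀ (Q : Type u) [Group Q], Subgroup Q) (hW₂ : IsCharPFunctor.{u} p W₂)
    (hfac₂ : ∀ (K R : Subgroup G) [(R.subgroupOf K).Normal],
      FacCN p W₂ (↥K ⧸ R.subgroupOf K))
    (hZ₁ : omegaOne p ((S : Subgroup G) ⊓ Subgroup.centralizer ((S : Subgroup G) : Set G)) ≤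
      inducedFunctor (G := G) W₁ (S : Subgroup G))
    (K : Subgroup G) (hSK : (S : Subgroup G) ≤ K)
    (hK : K ≤ Subgroup.normalizer
      ((inducedFunctor (G := G) W₁ (S : Subgroup G) : Subgroup G) : Set G)) :
    ncl K (omegaOne p ((S : Subgroup G) ⊓ Subgroup.centralizer ((S : Subgroup G) : Set G))) =
      ncl (K ⊓ Subgroup.normalizer
        ((inducedFunctor (G := G) W₂ (S : Subgroup G) : Subgroup G) : Set G))
        (omegaOne p ((S : Subgroup G) ⊓ Subgroup.centralizer ((S : Subgroup G) : Set G))) := by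
  obtain ⟨Z, hZdef⟩ : ∃ Z : Subgroup G, Z = omegaOne p ((S : Subgroup G) ⊓
      Subgroup.centralizer ((S : Subgroup G) : Set G)) := ⟨_, rfl⟩
  obtain ⟨D, hD⟩ : ∃ D : Subgroup G, D = inducedFunctor (G := G) W₁ (S : Subgroup G) := ⟨_, rfl⟩
  rw [← hD] at hK hZ₁
  have hDS : D ≤ (S : Subgroup G) := by rw [hD]; exact Cfsg.Agent.Helper10.ind_le W₁ _
  have hZc : omegaOne p ((S : Subgroup G) ⊓ Subgroup.centralizer ((S : Subgroup G) : Set G)) ≤
      Subgroup.centralizer ((S : Subgroup G) : Set G) := by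
    unfold omegaOne
    rw [Subgroup.closure_le]
    rintro z ⟨hz, -⟩
    exact (Subgroup.mem_inf.mp hz).2
  have hfacK := fac_in_K S W₂ hW₂ hfac₂ K (D ⊓ Subgroup.centralizer (D : Set G)) hSK
    (hK.trans (normalizer_le_normalizer_center D)) (inf_le_left.trans hDS)
    (inf_le_right.trans (Subgroup.centralizer_le inf_le_left))
    (le_inf hZ₁ (hZc.trans (Subgroup.centralizer_le hDS)))
  rw [← hZdef] at hfacK ⊢
  apply le_antisymm
  · have h2 : Subgroup.closure {x | ∃ n ∈ K, ∃ z ∈ Z, x = n * z * n⁻¹} ≤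
        ncl (K ⊓ Subgroup.normalizer
          ((inducedFunctor (G := G) W₂ (S : Subgroup G) : Subgroup G) : Set G)) Z := by
      rw [Subgroup.closure_le]
      rintro _ ⟨k, hk, z, hz, rfl⟩
      obtain ⟨a, ha, b, hb, hab⟩ := hfacK k⁻¹ (K.inv_mem hk)
      have hk2 : k = b⁻¹ * a⁻¹ := by
        rw [← mul_inv_rev, ← hab, inv_inv]
      have haz : z * a = a * z := (Subgroup.mem_centralizer_iff.mp ha) z hz
      have e : k * z * k⁻¹ = b⁻¹ * z * b⁻¹⁻¹ := by
        rw [hk2]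
        calc b⁻¹ * a⁻¹ * z * (b⁻¹ * a⁻¹)⁻¹ = b⁻¹ * (a⁻¹ * (z * a)) * b := by group
          _ = b⁻¹ * (a⁻¹ * (a * z)) * b := by rw [haz]
          _ = b⁻¹ * z * b⁻¹⁻¹ := by group
      apply Subgroup.subset_closure
      exact ⟨b⁻¹, Subgroup.inv_mem _ hb, z, hz, e⟩
    exact h2
  · exact ncl_mono Z inf_le_left

/-- The normal closures of `Z = Ω₁Z(S)` under `N_K(W₁(S))` and `N_K(W₂(S))` coincide, for
every subgroup `K ≥ S`. -/
theorem ncl_eq (S : Sylow p G)
    (W₁ W₂ : ∀ (Q : Type u) [Group Q], Subgroup Q) (hW₁ : IsCharPFunctor.{u} p W₁)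
    (hW₂ : IsCharPFunctor.{u} p W₂)
    (hfac₁ : ∀ (K R : Subgroup G) [(R.subgroupOf K).Normal],
      FacCN p W₁ (↥K ⧸ R.subgroupOf K))
    (hfac₂ : ∀ (K R : Subgroup G) [(R.subgroupOf K).Normal],
      FacCN p W₂ (↥K ⧸ R.subgroupOf K))
    (hZ₁ : omegaOne p ((S : Subgroup G) ⊓ Subgroup.centralizer ((S : Subgroup G) : Set G)) ≤
      inducedFunctor (G := G) W₁ (S : Subgroup G))
    (hZ₂ : omegaOne p ((S : Subgroup G) ⊓ Subgroup.centralizer ((S : Subgroup G) : Set G)) ≤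
      inducedFunctor (G := G) W₂ (S : Subgroup G)) :
    ∀ (n : ℕ) (K : Subgroup G), Nat.card K = n → (S : Subgroup G) ≤ K →
      ncl (K ⊓ Subgroup.normalizer
        ((inducedFunctor (G := G) W₁ (S : Subgroup G) : Subgroup G) : Set G))
        (omegaOne p ((S : Subgroup G) ⊓ Subgroup.centralizer ((S : Subgroup G) : Set G))) =
      ncl (K ⊓ Subgroup.normalizer
        ((inducedFunctor (G := G) W₂ (S : Subgroup G) : Subgroup G) : Set G))
        (omegaOne p ((S : Subgroup G) ⊓ Subgroup.centralizer ((S : Subgroup G) : Set G))) := by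
  obtain ⟨N₁, hN₁⟩ : ∃ N₁ : Subgroup G, N₁ = Subgroup.normalizer
      ((inducedFunctor (G := G) W₁ (S : Subgroup G) : Subgroup G) : Set G) := ⟨_, rfl⟩
  obtain ⟨N₂, hN₂⟩ : ∃ N₂ : Subgroup G, N₂ = Subgroup.normalizer
      ((inducedFunctor (G := G) W₂ (S : Subgroup G) : Subgroup G) : Set G) := ⟨_, rfl⟩
  have hSN₁ : (S : Subgroup G) ≤ N₁ := by
    rw [hN₁]
    exact fun t ht => Cfsg.Agent.Helper10.normalizer_le_normalizer_ind W₁ hW₁ _ S.2
      (Subgroup.le_normalizer ht)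
  have hSN₂ : (S : Subgroup G) ≤ N₂ := by
    rw [hN₂]
    exact fun t ht => Cfsg.Agent.Helper10.normalizer_le_normalizer_ind W₂ hW₂ _ S.2
      (Subgroup.le_normalizer ht)
  rw [← hN₁, ← hN₂]
  intro n
  induction n using Nat.strong_induction_on with
  | _ n ih =>
  intro K hn hSK
  by_cases h1 : K ≤ N₁
  · rw [inf_eq_left.mpr h1]
    have := ncl_eq_of_le S W₁ W₂ hW₂ hfac₂ hZ₁ K hSK (by rw [← hN₁]; exact h1)
    rw [← hN₂] at this
    exact this
  by_cases h2 : K ≤ N₂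
  · rw [inf_eq_left.mpr h2]
    have := ncl_eq_of_le S W₂ W₁ hW₁ hfac₁ hZ₂ K hSK (by rw [← hN₂]; exact h2)
    rw [← hN₁] at this
    exact this.symm
  have hlt₁ : Nat.card ↥(K ⊓ N₁) < n := by
    rw [← hn]
    by_contra hge
    have h3 := Subgroup.eq_of_le_of_card_ge (inf_le_left : K ⊓ N₁ ≤ K) (not_lt.mp hge)
    exact h1 (by rw [← h3]; exact inf_le_right)
  have hlt₂ : Nat.card ↥(K ⊓ N₂) < n := by
    rw [← hn]
    by_contra hge
    have h3 := Subgroup.eq_of_le_of_card_ge (inf_le_left : K ⊓ N₂ ≤ K) (not_lt.mp hge)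
    exact h2 (by rw [← h3]; exact inf_le_right)
  have i1 := ih _ hlt₁ (K ⊓ N₁) rfl (le_inf hSK hSN₁)
  have i2 := ih _ hlt₂ (K ⊓ N₂) rfl (le_inf hSK hSN₂)
  have e1 : K ⊓ N₁ ⊓ N₁ = K ⊓ N₁ := by rw [inf_assoc, inf_idem]
  have e2 : K ⊓ N₂ ⊓ N₁ = K ⊓ N₁ ⊓ N₂ := inf_right_comm _ _ _
  have e3 : K ⊓ N₂ ⊓ N₂ = K ⊓ N₂ := by rw [inf_assoc, inf_idem]
  rw [e1] at i1
  rw [e2, e3] at i2
  rw [i1, i2]

end Main

end Cfsg.Agent.Helper23.TF
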