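import Mathlib
import Cfsg.Prelude.Def_Transfer
import Cfsg.Prelude.Def_TwoFusion
import Cfsg.Prelude.Def_LocalEven
import Cfsg.Prelude.Def_EvenType
import Cfsg.Agent.Helper23.TF2

/-!
helper23: a triple factorization gives a strongly closed elementary abelian subgroup whose
normalizer controls strong fusion.
-/

set_option autoImplicit false

namespace Cfsg.Agent.Helper23.TF

open Cfsg

universe u

variable {p : ℕ} [Fact p.Prime] {G : Type u} [Group G] [Finite G]

theorem tf_main (S : Sylow p G)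
    (W₁ W₂ : ∀ (Q : Type u) [Group Q], Subgroup Q) (hW₁ : IsCharPFunctor.{u} p W₁)
    (hW₂ : IsCharPFunctor.{u} p W₂)
    (hfac₁ : ∀ (K R : Subgroup G) [(R.subgroupOf K).Normal],
      FacCN p W₁ (↥K ⧸ R.subgroupOf K))
    (hfac₂ : ∀ (K R : Subgroup G) [(R.subgroupOf K).Normal],
      FacCN p W₂ (↥K ⧸ R.subgroupOf K))
    (hctl : Cfsg.Agent.Helper10.Ctl p {W₁, W₂} G)
    (hZ₁ : omegaOne p ((S : Subgroup G) ⊓ Subgroup.centralizer ((S : Subgroup G) : Set G)) ≤
      inducedFunctor (G := G) W₁ (S : Subgroup G))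
    (hZ₂ : omegaOne p ((S : Subgroup G) ⊓ Subgroup.centralizer ((S : Subgroup G) : Set G)) ≤
      inducedFunctor (G := G) W₂ (S : Subgroup G))
    (A : Subgroup G)
    (hA : A = ncl (Subgroup.normalizer
        ((inducedFunctor (G := G) W₁ (S : Subgroup G) : Subgroup G) : Set G))
        (omegaOne p ((S : Subgroup G) ⊓ Subgroup.centralizer ((S : Subgroup G) : Set G)))) :
    A ≤ (S : Subgroup G) ∧ IsElementaryAbelian p A ∧ IsStronglyClosed A (S : Subgroup G) ∧
      ControlsStrongFusion p A := by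
  have heq := ncl_eq S W₁ W₂ hW₁ hW₂ hfac₁ hfac₂ hZ₁ hZ₂ _ ⊤ rfl le_top
  rw [top_inf_eq, top_inf_eq] at heq
  obtain ⟨Z, hZdef⟩ : ∃ Z : Subgroup G, Z = omegaOne p ((S : Subgroup G) ⊓
      Subgroup.centralizer ((S : Subgroup G) : Set G)) := ⟨_, rfl⟩
  obtain ⟨D, hD⟩ : ∃ D : Subgroup G, D = inducedFunctor (G := G) W₁ (S : Subgroup G) := ⟨_, rfl⟩
  have hDS : D ≤ (S : Subgroup G) := by rw [hD]; exact Cfsg.Agent.Helper10.ind_le W₁ _
  have hZgen : ∀ z ∈ Z, z ∈ (S : Subgroup G) ⊓ Subgroup.centralizer ((S : Subgroup G) : Set G) ∧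
      z ^ p = 1 := by
    rw [hZdef]; unfold omegaOne
    apply pow_eq_one_of_mem_closure
    · exact inf_le_right.trans (Subgroup.centralizer_le inf_le_left)
    · intro x hx; exact hx
  have hZc : Z ≤ Subgroup.centralizer ((S : Subgroup G) : Set G) :=
    fun z hz => (Subgroup.mem_inf.mp (hZgen z hz).1).2
  rw [← hZdef, ← hD] at heq hA hZ₁
  obtain ⟨U, hU⟩ : ∃ U : Subgroup G, U = D ⊓ Subgroup.centralizer (D : Set G) := ⟨_, rfl⟩
  have hUab : U ≤ Subgroup.centralizer (U : Set G) := by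
    rw [hU]; exact inf_le_right.trans (Subgroup.centralizer_le inf_le_left)
  have hAU : A ≤ U := by
    rw [hA, hU]
    exact ncl_le (le_inf hZ₁ (hZc.trans (Subgroup.centralizer_le hDS)))
      (normalizer_le_normalizer_center D)
  have hAS : A ≤ (S : Subgroup G) := hAU.trans (by rw [hU]; exact inf_le_left.trans hDS)
  have hApow : ∀ a ∈ A, a ∈ U ∧ a ^ p = 1 := by
    have h1 : ∀ a ∈ Subgroup.closure {x | ∃ n ∈ Subgroup.normalizer (D : Set G), ∃ z ∈ Z,
        x = n * z * n⁻¹}, a ∈ U ∧ a ^ p = 1 := by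
      apply pow_eq_one_of_mem_closure U hUab
      rintro _ ⟨n, hn, z, hz, rfl⟩
      refine ⟨hAU ?_, by rw [conj_pow, (hZgen z hz).2, mul_one, mul_inv_cancel]⟩
      rw [hA]
      exact Subgroup.subset_closure ⟨n, hn, z, hz, rfl⟩
    intro a ha
    rw [hA] at ha
    exact h1 a ha
  have hN₁ : Subgroup.normalizer (D : Set G) ≤ Subgroup.normalizer (A : Set G) := by
    rw [hA]; exact le_normalizer_ncl _ _
  have hN₂ : Subgroup.normalizer
      ((inducedFunctor (G := G) W₂ (S : Subgroup G) : Subgroup G) : Set G) ≤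
      Subgroup.normalizer (A : Set G) := by
    rw [hA, heq]; exact le_normalizer_ncl _ _
  have hSt : ∀ y ∈ Cfsg.Agent.Helper10.stepSet (Cfsg.Agent.Helper10.fam {W₁, W₂} G) ⊤
      (S : Subgroup G), y ∈ Subgroup.normalizer (A : Set G) := by
    intro y hy
    rw [Cfsg.Agent.Helper10.mem_stp] at hy
    obtain ⟨W, hW, -, hy2⟩ := hy
    rcases hW with hW | hW
    · rw [hW, ← hD] at hy2; exact hN₁ hy2
    · rw [Set.mem_singleton_iff] at hW
      rw [hW] at hy2; exact hN₂ hy2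
  have hcsf : ∀ A' : Set G, A' ⊆ ((S : Subgroup G) : Set G) →
      ControlsStrongFusionOf (Subgroup.normalizer (A : Set G)) (S : Subgroup G) A' := by
    intro A' hA'
    refine ⟨hA', fun g hg => ?_⟩
    obtain ⟨c, hc, e⟩ := hctl S A' g hA' hg
    exact ⟨c, hc.mem_subgroup _ hSt, fun a ha => (e a ha).symm⟩
  refine ⟨hAS, ⟨⟨⟨fun a b => Subtype.ext ?_⟩⟩, fun a ha => (hApow a ha).2⟩, ⟨hAS, ?_⟩,
    ⟨S, hAS, hcsf⟩⟩
  · have ha : (a : G) ∈ U := hAU a.2
    have hb : (b : G) ∈ U := hAU b.2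
    exact ((Subgroup.mem_centralizer_iff.mp (hUab hb)) (a : G) ha)
  · intro x hx g hg
    have hA' : ({x} : Set G) ⊆ ((S : Subgroup G) : Set G) := by
      intro y hy
      rw [Set.mem_singleton_iff] at hy
      rw [hy]; exact hAS hx
    have hg' : (fun a => g * a * g⁻¹) '' ({x} : Set G) ⊆ ((S : Subgroup G) : Set G) := by
      rintro _ ⟨y, hy, rfl⟩
      rw [Set.mem_singleton_iff] at hy
      rw [hy]; exact hg
    obtain ⟨c, hc, e⟩ := (hcsf {x} hA').2 g hg'
    rw [e x rfl]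
    exact (Subgroup.mem_normalizer_iff.mp hc x).mp hx

end Cfsg.Agent.Helper23.TF
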