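import Mathlib
import Cfsg.Prelude.Def_GeometricClasses
import Cfsg.Agent.Lead.S5998p8

set_option autoImplicit false
open scoped MatrixGroups

namespace Cfsg.Agent.Helper23.U3B4

open Matrix

/-- a matrix commuting with `diag(1, ω², ω)` and the cyclic permutation matrix is scalar -/
theorem scalar_of_comm {F : Type*} [Field F] (ω : F) (hω : ω ≠ 1) (hω3 : ω ^ 3 = 1)
    (Y : Matrix (Fin 3) (Fin 3) F)
    (hA : Y * Matrix.diagonal ![1, ω ^ 2, ω] = Matrix.diagonal ![1, ω ^ 2, ω] * Y)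
    (hC : Y * !![0, 0, 1; 1, 0, 0; 0, 1, 0] = !![0, 0, 1; 1, 0, 0; 0, 1, 0] * Y) :
    Y = Y 0 0 • (1 : Matrix (Fin 3) (Fin 3) F) := by
  have hω0 : ω ≠ 0 := by rintro rfl; simp at hω3
  have h21 : ω ^ 2 - 1 ≠ 0 := by
    intro h
    apply hω
    have h1 : ω ^ 2 = 1 := sub_eq_zero.mp h
    calc ω = ω ^ 2 * ω := by rw [h1, one_mul]
      _ = 1 := by rw [← hω3]; ring
  have h1ω : ω - 1 ≠ 0 := sub_ne_zero.mpr hω
  have h2ω : ω ^ 2 - ω ≠ 0 := by
    intro h
    have h1 : ω * (ω - 1) = 0 := by linear_combination h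
    rcases mul_eq_zero.mp h1 with h | h
    · exact hω0 h
    · exact h1ω h
  have e01 := congrFun (congrFun hA 0) 1
  have e02 := congrFun (congrFun hA 0) 2
  have e10 := congrFun (congrFun hA 1) 0
  have e12 := congrFun (congrFun hA 1) 2
  have e20 := congrFun (congrFun hA 2) 0
  have e21 := congrFun (congrFun hA 2) 1
  simp [Matrix.mul_apply, Fin.sum_univ_three, Matrix.diagonal_apply] at e01 e02 e10 e12 e20 e21
  have c10 := congrFun (congrFun hC 1) 0
  have c21 := congrFun (congrFun hC 2) 1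
  simp [Matrix.mul_apply, Fin.sum_univ_three] at c10 c21
  have y01 : Y 0 1 = 0 := by
    have h : Y 0 1 * (ω ^ 2 - 1) = 0 := by linear_combination e01
    exact (mul_eq_zero.mp h).resolve_right h21
  have y02 : Y 0 2 = 0 := by
    have h : Y 0 2 * (ω - 1) = 0 := by linear_combination e02
    exact (mul_eq_zero.mp h).resolve_right h1ω
  have y10 : Y 1 0 = 0 := by
    have h : Y 1 0 * (ω ^ 2 - 1) = 0 := by linear_combination -e10
    exact (mul_eq_zero.mp h).resolve_right h21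
  have y12 : Y 1 2 = 0 := by
    have h : Y 1 2 * (ω ^ 2 - ω) = 0 := by linear_combination -e12
    exact (mul_eq_zero.mp h).resolve_right h2ω
  have y20 : Y 2 0 = 0 := by
    have h : Y 2 0 * (ω - 1) = 0 := by linear_combination -e20
    exact (mul_eq_zero.mp h).resolve_right h1ω
  have y21 : Y 2 1 = 0 := by
    have h : Y 2 1 * (ω ^ 2 - ω) = 0 := by linear_combination e21
    exact (mul_eq_zero.mp h).resolve_right h2ω
  ext a b
  fin_cases a <;> fin_cases b <;> simp [y01, y02, y10, y12, y20, y21]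
  · exact c10
  · rw [c21, c10]

theorem nz_scalar {F : Type*} [Field F] [Fintype F] (R : Subgroup (GL (Fin 3) F)) (g : GL (Fin 3) F) (ω : F) (hω : ω ≠ 1) (hω3 : ω ^ 3 = 1) (hRd : ∀ y : GL (Fin 3) F, y ∈ R ↔ ∃ i j k : ℕ, (y : Matrix (Fin 3) (Fin 3) F) = (g : Matrix (Fin 3) (Fin 3) F) * (ω ^ i • (Matrix.diagonal ![1, ω ^ 2, ω] ^ j * !![0, 0, 1; 1, 0, 0; 0, 1, 0] ^ k)) * ((g⁻¹ : GL (Fin 3) F) : Matrix (Fin 3) (Fin 3) F)) (hR : Nat.card R = 27) (x : GL (Fin 3) F) (hx : x ∈ Cfsg.Geo.subgroupNormalizer R) (r : ℕ) (hr : r.Prime) (hr5 : 5 ≤ r) (hxr : ∃ z : F, ((x ^ r : GL (Fin 3) F) : Matrix (Fin 3) (Fin 3) F) = z • (1 : Matrix (Fin 3) (Fin 3) F)) : ∃ z : F, (x : Matrix (Fin 3) (Fin 3) F) = z • (1 : Matrix (Fin 3) (Fin 3) F) := by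
  haveI : Fact r.Prime := ⟨hr⟩
  have hr2 : r ≠ 2 := by omega
  have hr3 : r ≠ 3 := by omega
  have hω0 : ω ≠ 0 := by rintro rfl; simp at hω3
  -- the two generators
  have hdA : (Matrix.diagonal ![1, ω ^ 2, ω] : Matrix (Fin 3) (Fin 3) F).det ≠ 0 := by
    rw [Matrix.det_diagonal, Fin.prod_univ_three]
    simp [hω0]
  have hdC : (!![0, 0, 1; 1, 0, 0; 0, 1, 0] : Matrix (Fin 3) (Fin 3) F).det ≠ 0 := by
    rw [Matrix.det_fin_three]; simp
  set uA : GL (Fin 3) F := Matrix.GeneralLinearGroup.mkOfDetNeZero _ hdA with huA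
  set uC : GL (Fin 3) F := Matrix.GeneralLinearGroup.mkOfDetNeZero _ hdC with huC
  have huAv : (uA : Matrix (Fin 3) (Fin 3) F) = Matrix.diagonal ![1, ω ^ 2, ω] := rfl
  have huCv : (uC : Matrix (Fin 3) (Fin 3) F) = !![0, 0, 1; 1, 0, 0; 0, 1, 0] := rfl
  have hGGi : (g : Matrix (Fin 3) (Fin 3) F) * ((g⁻¹ : GL (Fin 3) F) : Matrix (Fin 3) (Fin 3) F) = 1 := by
    rw [← Units.val_mul, mul_inv_cancel]; rfl
  have hGiG : ((g⁻¹ : GL (Fin 3) F) : Matrix (Fin 3) (Fin 3) F) * (g : Matrix (Fin 3) (Fin 3) F) = 1 := by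
    rw [← Units.val_mul, inv_mul_cancel]; rfl
  have haR : g * uA * g⁻¹ ∈ R := by
    rw [hRd]
    refine ⟨0, 1, 0, ?_⟩
    rw [Units.val_mul, Units.val_mul, huAv]
    simp
  have hbR : g * uC * g⁻¹ ∈ R := by
    rw [hRd]
    refine ⟨0, 0, 1, ?_⟩
    rw [Units.val_mul, Units.val_mul, huCv]
    simp
  -- `R` is not commutative
  have hACne : (Matrix.diagonal ![1, ω ^ 2, ω] : Matrix (Fin 3) (Fin 3) F) * !![0, 0, 1; 1, 0, 0; 0, 1, 0] ≠
      !![0, 0, 1; 1, 0, 0; 0, 1, 0] * Matrix.diagonal ![1, ω ^ 2, ω] := by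
    intro h
    have h1 := congrFun (congrFun h 1) 0
    simp [Matrix.mul_apply, Fin.sum_univ_three, Matrix.diagonal_apply] at h1
    rcases h1 with h1 | h1
    · exact hω h1
    · apply hω
      have h5 : (-1 : F) ^ 3 = -1 := by ring
      rw [h1, h5] at hω3
      rw [h1]; exact hω3
  have hna : ¬ ∀ a b : R, a * b = b * a := by
    intro h
    have h1 := congrArg (fun t : R => ((t : GL (Fin 3) F) : Matrix (Fin 3) (Fin 3) F))
      (h ⟨_, haR⟩ ⟨_, hbR⟩)
    simp only [Subgroup.coe_mul, Units.val_mul, huAv, huCv] at h1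
    apply hACne
    have h2 := congrArg (fun Z => ((g⁻¹ : GL (Fin 3) F) : Matrix (Fin 3) (Fin 3) F) * Z *
      (g : Matrix (Fin 3) (Fin 3) F)) h1
    have hc : ∀ Z : Matrix (Fin 3) (Fin 3) F,
        ((g⁻¹ : GL (Fin 3) F) : Matrix (Fin 3) (Fin 3) F) * ((g : Matrix (Fin 3) (Fin 3) F) * Z) = Z :=
      fun Z => by rw [← Matrix.mul_assoc, hGiG, Matrix.one_mul]
    simp only [Matrix.mul_assoc, hc, hGiG, Matrix.mul_one] at h2
    exact h2
  -- conjugation by `x` on `R`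
  have hx0 : x ∈ Subgroup.normalizer (R : Set (GL (Fin 3) F)) := hx
  have hx' : ∀ h, h ∈ R ↔ x * h * x⁻¹ ∈ R := Subgroup.mem_normalizer_iff.mp hx0
  have hxi : ∀ h, h ∈ R ↔ x⁻¹ * h * x ∈ R := by
    intro h
    have := Subgroup.mem_normalizer_iff.mp (inv_mem hx0) h
    simpa using this
  let φ : MulAut R :=
    { toFun := fun h => ⟨x * h * x⁻¹, (hx' h).mp h.2⟩
      invFun := fun h => ⟨x⁻¹ * h * x, (hxi h).mp h.2⟩
      left_inv := fun h => Subtype.ext (by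
        show x⁻¹ * (x * (h : GL (Fin 3) F) * x⁻¹) * x = h
        group)
      right_inv := fun h => Subtype.ext (by
        show x * (x⁻¹ * (h : GL (Fin 3) F) * x) * x⁻¹ = h
        group)
      map_mul' := fun a b => Subtype.ext (by
        show x * ((a : GL (Fin 3) F) * b) * x⁻¹ = (x * a * x⁻¹) * (x * b * x⁻¹)
        group) }
  have hφa : ∀ h : R, ((φ h : R) : GL (Fin 3) F) = x * h * x⁻¹ := fun h => rfl
  have hpow : ∀ (n : ℕ) (h : R), (((φ ^ n) h : R) : GL (Fin 3) F) = x ^ n * h * (x ^ n)⁻¹ := by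
    intro n
    induction n with
    | zero => intro h; simp
    | succ n ih =>
      intro h
      rw [pow_succ', MulAut.mul_apply, hφa, ih h, pow_succ']
      group
  obtain ⟨z, hz⟩ := hxr
  have hcent : ∀ h : GL (Fin 3) F, x ^ r * h = h * x ^ r := by
    intro h
    apply Units.ext
    rw [Units.val_mul, Units.val_mul, hz]
    simp
  have hφ : φ ^ r = 1 := by
    apply MulEquiv.ext
    intro h
    apply Subtype.ext
    rw [hpow r h, hcent]
    simp
  have hfix := Cfsg.Agent.Lead.S5998p8.aut_trivial hR hna φ r hr2 hr3 hφ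
  have hcomm : ∀ h ∈ R, (x : Matrix (Fin 3) (Fin 3) F) * (h : Matrix (Fin 3) (Fin 3) F) =
      (h : Matrix (Fin 3) (Fin 3) F) * (x : Matrix (Fin 3) (Fin 3) F) := by
    intro h hh
    have h1 := hfix ⟨h, hh⟩
    have h2 : x * h * x⁻¹ = h := congrArg Subtype.val h1
    have h3 : x * h = h * x := by
      calc x * h = x * h * x⁻¹ * x := by group
        _ = h * x := by rw [h2]
    have h4 := congrArg (fun t : GL (Fin 3) F => (t : Matrix (Fin 3) (Fin 3) F)) h3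
    simpa [Units.val_mul] using h4
  have hc : ∀ Z : Matrix (Fin 3) (Fin 3) F,
      ((g⁻¹ : GL (Fin 3) F) : Matrix (Fin 3) (Fin 3) F) * ((g : Matrix (Fin 3) (Fin 3) F) * Z) = Z :=
    fun Z => by rw [← Matrix.mul_assoc, hGiG, Matrix.one_mul]
  have hc' : ∀ Z : Matrix (Fin 3) (Fin 3) F,
      (g : Matrix (Fin 3) (Fin 3) F) * (((g⁻¹ : GL (Fin 3) F) : Matrix (Fin 3) (Fin 3) F) * Z) = Z :=
    fun Z => by rw [← Matrix.mul_assoc, hGGi, Matrix.one_mul]
  set Y : Matrix (Fin 3) (Fin 3) F := ((g⁻¹ : GL (Fin 3) F) : Matrix (Fin 3) (Fin 3) F) *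
    (x : Matrix (Fin 3) (Fin 3) F) * (g : Matrix (Fin 3) (Fin 3) F) with hY
  have key : ∀ u : GL (Fin 3) F, g * u * g⁻¹ ∈ R →
      Y * (u : Matrix (Fin 3) (Fin 3) F) = (u : Matrix (Fin 3) (Fin 3) F) * Y := by
    intro u hu
    have h1 := hcomm _ hu
    rw [Units.val_mul, Units.val_mul] at h1
    have h2 := congrArg (fun Z => ((g⁻¹ : GL (Fin 3) F) : Matrix (Fin 3) (Fin 3) F) * Z *
      (g : Matrix (Fin 3) (Fin 3) F)) h1
    simp only [Matrix.mul_assoc, hc, hGiG, Matrix.mul_one] at h2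
    rw [hY]
    simp only [Matrix.mul_assoc]
    exact h2
  have hYA := key uA haR
  have hYC := key uC hbR
  rw [huAv] at hYA
  rw [huCv] at hYC
  have hYs := scalar_of_comm ω hω hω3 Y hYA hYC
  refine ⟨Y 0 0, ?_⟩
  have hXY : (x : Matrix (Fin 3) (Fin 3) F) = (g : Matrix (Fin 3) (Fin 3) F) * Y *
      ((g⁻¹ : GL (Fin 3) F) : Matrix (Fin 3) (Fin 3) F) := by
    rw [hY]
    simp only [Matrix.mul_assoc, hc', hGGi, Matrix.mul_one]
  rw [hXY, hYs]
  simp [hGGi]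

end Cfsg.Agent.Helper23.U3B4
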