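import Mathlib
import Cfsg.Prelude.Def_GeometricClasses
import Cfsg.Prelude.Def_LieClassical
import Cfsg.Agent.S2587
import Cfsg.Agent.Helper14.Psu3a
import Cfsg.Agent.Helper23.S5998p5

set_option autoImplicit false
open scoped MatrixGroups

namespace Cfsg.Agent.Helper23.U3C

open Matrix Cfsg.Agent.Helper8.SULag

variable {F : Type*} [Field F] [Fintype F] {p : ℕ} [Fact p.Prime] [CharP F p]

omit [Fintype F] [Fact p.Prime] [CharP F p] in
theorem mem_gu_mat (hq : QF F p) (k : GL (Fin 3) F) :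
    k ∈ Cfsg.GU 3 F p ↔
      (k : Matrix (Fin 3) (Fin 3) F)ᵀ * (k : Matrix (Fin 3) (Fin 3) F).map (fun x => x ^ p) = 1 :=
  Cfsg.Agent.Helper14.Psu3a.herm_iff hq _

omit [Fintype F] [Fact p.Prime] [CharP F p] in
theorem det_unitary (hq : QF F p) (C : Matrix (Fin 3) (Fin 3) F)
    (hC : Cᵀ * C.map (fun x => x ^ p) = 1) : C.det ^ (p + 1) = 1 := by
  have h1 : C.map (fun x => x ^ p) = (frob hq).mapMatrix C := by
    ext i j; simp [frob_apply]
  have h2 := congrArg Matrix.det hC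
  rw [Matrix.det_mul, Matrix.det_transpose, h1, ← RingHom.map_det, frob_apply, Matrix.det_one] at h2
  rw [pow_succ, mul_comm]
  exact h2

theorem inv_conj (hF : Fintype.card F = p ^ 2) (hp : 5 ≤ p) (x : GL (Fin 3) F) (hx : x ∈ Cfsg.GU 3 F p ⊓ Cfsg.Geo.specialLinear (Fin 3) F) (hx2 : ∃ z : F, ((x ^ 2 : GL (Fin 3) F) : Matrix (Fin 3) (Fin 3) F) = z • (1 : Matrix (Fin 3) (Fin 3) F)) (hns : ∀ z : F, (x : Matrix (Fin 3) (Fin 3) F) ≠ z • (1 : Matrix (Fin 3) (Fin 3) F)) (g : GL (Fin 3) F) (hg : g ∈ Cfsg.GU 3 F p) (T : GL (Fin 3) F) (hT : (T : Matrix (Fin 3) (Fin 3) F) = !![-1, 0, 0; 0, 0, -1; 0, -1, 0]) : ∃ (h : GL (Fin 3) F) (c : F), h ∈ Cfsg.GU 3 F p ⊓ Cfsg.Geo.specialLinear (Fin 3) F ∧ ((h⁻¹ * x * h : GL (Fin 3) F) : Matrix (Fin 3) (Fin 3) F) = c • ((g * T * g⁻¹ : GL (Fin 3) F) : Matrix (Fin 3) (Fin 3) F) := by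
  classical
  have hq : QF F p := qf_of_card hF
  have hp0 : p ≠ 0 := by omega
  have hpodd : Odd p := (Fact.out : p.Prime).odd_of_ne_two (by omega)
  have h2 : (2 : F) ≠ 0 := by
    intro h
    have h' : ((2 : ℕ) : F) = 0 := by exact_mod_cast h
    rw [CharP.cast_eq_zero_iff F p 2] at h'
    have : p ≤ 2 := Nat.le_of_dvd (by norm_num) h'
    omega
  obtain ⟨z, hz⟩ := hx2
  have hxGU : x ∈ Cfsg.GU 3 F p := hx.1
  have hxSL : x ∈ Cfsg.Geo.specialLinear (Fin 3) F := hx.2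
  have hdet : (x : Matrix (Fin 3) (Fin 3) F).det = 1 := by
    have h1 : Matrix.GeneralLinearGroup.det x = 1 := hxSL
    have h3 := congrArg (fun u : Fˣ => (u : F)) h1
    simpa using h3
  have hXX : (x : Matrix (Fin 3) (Fin 3) F) * (x : Matrix (Fin 3) (Fin 3) F) = z • 1 := by
    rw [← hz, pow_two]; rfl
  have hz3 : z ^ 3 = 1 := by
    have h := congrArg Matrix.det hXX
    rw [Matrix.det_mul, hdet, Matrix.det_smul, Matrix.det_one, Fintype.card_fin] at h
    simpa using h.symm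
  have hz0 : z ≠ 0 := by rintro rfl; simp at hz3
  -- z^(p+1) = 1
  have hzp : z * z ^ p = 1 := by
    have h1 : x * x ∈ Cfsg.GU 3 F p := mul_mem hxGU hxGU
    rw [mem_gu_mat hq, Units.val_mul, hXX] at h1
    have h3 := congrFun (congrFun h1 0) 0
    simpa [Matrix.mul_apply, Fin.sum_univ_three, Matrix.one_apply, hp0] using h3
  -- the scalar element
  have hdz : (z • (1 : Matrix (Fin 3) (Fin 3) F)).det ≠ 0 := by
    rw [Matrix.det_smul, Matrix.det_one, Fintype.card_fin, mul_one]; exact pow_ne_zero _ hz0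
  set sz : GL (Fin 3) F := Matrix.GeneralLinearGroup.mkOfDetNeZero _ hdz with hsz
  have hszv : (sz : Matrix (Fin 3) (Fin 3) F) = z • 1 := rfl
  have hszGU : sz ∈ Cfsg.GU 3 F p := by
    rw [mem_gu_mat hq, hszv]
    ext i j
    fin_cases i <;> fin_cases j <;>
      simp [Matrix.mul_apply, Fin.sum_univ_three, Matrix.one_apply, hp0, hzp]
  set x' : GL (Fin 3) F := sz * x with hx'
  have hx'v : (x' : Matrix (Fin 3) (Fin 3) F) = z • (x : Matrix (Fin 3) (Fin 3) F) := by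
    rw [hx', Units.val_mul, hszv, Matrix.smul_mul, Matrix.one_mul]
  have hx'GU : x' ∈ Cfsg.GU 3 F p := mul_mem hszGU hxGU
  -- GL-conjugacy with T
  obtain ⟨K, hK, hMK⟩ := Cfsg.Agent.Helper23.S5998p5.core h2 (z • (x : Matrix (Fin 3) (Fin 3) F)) (by
      rw [Matrix.smul_mul, Matrix.mul_smul, hXX, smul_smul, smul_smul]
      have h : z * z * z = 1 := by rw [← hz3]; ring
      rw [h, one_smul]) (by
      rw [Matrix.det_smul, hdet, Fintype.card_fin, mul_one]; exact hz3) (by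
      intro c hc
      apply hns (z⁻¹ * c)
      have h := congrArg (fun A => z⁻¹ • A) hc
      simp only [smul_smul, inv_mul_cancel₀ hz0, one_smul] at h
      exact h)
  set k₀ : GL (Fin 3) F := Matrix.GeneralLinearGroup.mkOfDetNeZero K hK with hk₀
  have hk₀v : (k₀ : Matrix (Fin 3) (Fin 3) F) = K := rfl
  have hxk : x' * k₀ = k₀ * T := by
    apply Units.ext
    show (x' : Matrix (Fin 3) (Fin 3) F) * (k₀ : Matrix (Fin 3) (Fin 3) F) =
      (k₀ : Matrix (Fin 3) (Fin 3) F) * (T : Matrix (Fin 3) (Fin 3) F)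
    rw [hx'v, hk₀v, hT]
    exact hMK
  -- T is unitary
  have hTGU : T ∈ Cfsg.GU 3 F p := by
    rw [mem_gu_mat hq, hT]
    ext i j
    fin_cases i <;> fin_cases j <;>
      simp [Matrix.mul_apply, Fin.sum_univ_three, Matrix.one_apply, hp0, hpodd.neg_one_pow]
  have hgT : g * T * g⁻¹ ∈ Cfsg.GU 3 F p := mul_mem (mul_mem hg hTGU) (inv_mem hg)
  have hconjGL : IsConj x' (g * T * g⁻¹) := by
    rw [isConj_iff]
    refine ⟨g * k₀⁻¹, ?_⟩
    have h1 : k₀⁻¹ * x' * k₀ = T := by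
      rw [mul_assoc, hxk, inv_mul_cancel_left]
    rw [← h1]
    group
  have hconjGU : IsConj (⟨x', hx'GU⟩ : ↥(Cfsg.GU 3 F p)) ⟨g * T * g⁻¹, hgT⟩ :=
    (Cfsg.Agent.S2587.result hF _ _).mpr hconjGL
  rw [isConj_iff] at hconjGU
  obtain ⟨c, hc⟩ := hconjGU
  have hc' : (c : GL (Fin 3) F) * x' * (c : GL (Fin 3) F)⁻¹ = g * T * g⁻¹ := by
    have h := congrArg (fun t : ↥(Cfsg.GU 3 F p) => (t : GL (Fin 3) F)) hc
    simpa using h
  -- determinant fix
  have hcU := (mem_gu_mat hq (c : GL (Fin 3) F)).mp c.2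
  have hεp := det_unitary hq _ hcU
  set ε : F := ((c : GL (Fin 3) F) : Matrix (Fin 3) (Fin 3) F).det with hε
  have hε0 : ε ≠ 0 := by
    rintro h
    rw [h] at hεp
    simp at hεp
  have hdE : (Matrix.diagonal ![ε, 1, 1] : Matrix (Fin 3) (Fin 3) F).det ≠ 0 := by
    rw [Matrix.det_diagonal, Fin.prod_univ_three]
    simp [hε0]
  set uE : GL (Fin 3) F := Matrix.GeneralLinearGroup.mkOfDetNeZero _ hdE with huE
  have huEv : (uE : Matrix (Fin 3) (Fin 3) F) = Matrix.diagonal ![ε, 1, 1] := rfl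
  have huEGU : uE ∈ Cfsg.GU 3 F p := by
    rw [mem_gu_mat hq, huEv]
    have hεp' : ε * ε ^ p = 1 := by rw [← hεp, pow_succ, mul_comm]
    ext i j
    fin_cases i <;> fin_cases j <;>
      simp [Matrix.mul_apply, Fin.sum_univ_three, Matrix.one_apply, hp0, hεp']
  have hET : uE * T = T * uE := by
    apply Units.ext
    rw [Units.val_mul, Units.val_mul, huEv, hT]
    ext i j
    fin_cases i <;> fin_cases j <;> simp [Matrix.mul_apply, Fin.sum_univ_three]
  set h : GL (Fin 3) F := (c : GL (Fin 3) F)⁻¹ * (g * uE * g⁻¹) with hh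
  have hhGU : h ∈ Cfsg.GU 3 F p :=
    mul_mem (inv_mem c.2) (mul_mem (mul_mem hg huEGU) (inv_mem hg))
  have hhSL : h ∈ Cfsg.Geo.specialLinear (Fin 3) F := by
    show Matrix.GeneralLinearGroup.det h = 1
    have h1 : Matrix.GeneralLinearGroup.det uE = Matrix.GeneralLinearGroup.det (c : GL (Fin 3) F) := by
      apply Units.ext
      rw [Matrix.GeneralLinearGroup.val_det_apply, Matrix.GeneralLinearGroup.val_det_apply, huEv,
        Matrix.det_diagonal, Fin.prod_univ_three]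
      simp [hε]
    rw [hh, map_mul, map_mul, map_mul, map_inv, map_inv, h1]
    rw [mul_comm (Matrix.GeneralLinearGroup.det g), mul_assoc, mul_inv_cancel, mul_one,
      inv_mul_cancel]
  have hconj : h⁻¹ * x' * h = g * T * g⁻¹ := by
    calc h⁻¹ * x' * h = (g * uE * g⁻¹)⁻¹ * ((c : GL (Fin 3) F) * x' * (c : GL (Fin 3) F)⁻¹) *
          (g * uE * g⁻¹) := by rw [hh]; group
      _ = g * (uE⁻¹ * T * uE) * g⁻¹ := by rw [hc']; group
      _ = g * T * g⁻¹ := by rw [mul_assoc uE⁻¹, ← hET, inv_mul_cancel_left]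
  refine ⟨h, z⁻¹, ⟨hhGU, hhSL⟩, ?_⟩
  have e1 : ((h⁻¹ * x' * h : GL (Fin 3) F) : Matrix (Fin 3) (Fin 3) F) =
      z • ((h⁻¹ * x * h : GL (Fin 3) F) : Matrix (Fin 3) (Fin 3) F) := by
    show ((h⁻¹ : GL (Fin 3) F) : Matrix (Fin 3) (Fin 3) F) * (x' : Matrix (Fin 3) (Fin 3) F) *
        (h : Matrix (Fin 3) (Fin 3) F) =
      z • (((h⁻¹ : GL (Fin 3) F) : Matrix (Fin 3) (Fin 3) F) * (x : Matrix (Fin 3) (Fin 3) F) *
        (h : Matrix (Fin 3) (Fin 3) F))
    rw [hx'v, Matrix.mul_smul, Matrix.smul_mul]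
  rw [← hconj, e1, smul_smul, inv_mul_cancel₀ hz0, one_smul]

end Cfsg.Agent.Helper23.U3C
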